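import Cfsg.Agent.Lib.PS4.Def

/-! 2-transitive groups with an imprimitive point stabilizer. -/

set_option autoImplicit false

namespace Cfsg.Lib.PS4

open Finset MulAction
open scoped Classical

variable {G X : Type*} [Group G] [MulAction G X] [Fintype X] [DecidableEq X] {a c x y z : X} {B : Finset X}

theorem Ter.symm (h : Ter G a B c x y) : Ter G a B c y x :=
  let ⟨g, h1, h2, h3⟩ := h
  ⟨g, h1, h3, h2⟩

theorem Ter.smul (h : Ter G a B c x y) (g : G) : Ter G a B (g • c) (g • x) (g • y) :=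
  let ⟨k, h⟩ := h
  ⟨k * g⁻¹, by simpa only [mul_smul, inv_smul_smul] using h⟩

theorem Blk.ne (h : Blk G a B) (t : Ter G a B c x y) : x ≠ c ∧ y ≠ c :=
  let ⟨_, h1, h2, h3⟩ := t
  ⟨fun e => h.nm (h1 ▸ e ▸ h2), fun e => h.nm (h1 ▸ e ▸ h3)⟩

theorem Blk.refl (h : Blk G a B) (hx : x ≠ c) : Ter G a B c x x := by
  obtain ⟨b, hb⟩ := card_pos.1 (two_pos.trans_le h.b2)
  obtain ⟨g, h1, h2⟩ := h.two c x a b hx.symm fun e => h.nm (e ▸ hb)
  exact ⟨g, h1, h2 ▸ hb, h2 ▸ hb⟩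

/-- `g' g⁻¹` fixes `a` and maps a point of `B` into `B`. -/
theorem Blk.trans (h : Blk G a B) (t : Ter G a B c x y) (t' : Ter G a B c y z) : Ter G a B c x z := by
  obtain ⟨g, h1, h2, h3⟩ := t
  obtain ⟨k, k1, k2, k3⟩ := t'
  refine ⟨k, k1, ?_, k3⟩
  simpa only [mul_smul, inv_smul_smul] using h.blk (k * g⁻¹)
    (by rw [mul_smul, ← h1, inv_smul_smul, k1, h1]) _ h3 (by rwa [mul_smul, inv_smul_smul]) _ h2

/-- With `g • c = a`, `g • x ∈ B`: `Ter c x y ↔ g • y ∈ B`. -/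
theorem Blk.card_cls (h : Blk G a B) (hx : x ≠ c) : #{y | Ter G a B c x y} = #B := by
  obtain ⟨g, h1, h2, -⟩ := h.refl hx
  refine card_bij (fun y _ => g • y) (fun y hy => ?_) (fun _ _ _ _ e => smul_left_cancel g e)
    fun b hb => ⟨g⁻¹ • b, mem_filter.2 ⟨mem_univ _, g, h1, h2, by rwa [smul_inv_smul]⟩, smul_inv_smul g b⟩
  obtain ⟨k, k1, k2, k3⟩ := (mem_filter.1 hy).2
  simpa only [mul_smul, inv_smul_smul] using h.blk (g * k⁻¹)
    (by rw [mul_smul, ← k1, inv_smul_smul, h1, k1]) _ k2 (by rwa [mul_smul, inv_smul_smul]) _ k3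

theorem Blk.two_le (h : Blk G a B) (hx : x ≠ c) (hy : y ≠ c) (t : ¬ Ter G a B c x y) {Z : Finset X}
    (hZ : ∀ z, Ter G a B c x z ∨ Ter G a B c y z → z ∈ Z) : 2 * #B ≤ #Z := by
  have h1 := card_union_of_disjoint (s := {z | Ter G a B c x z}) (t := {z | Ter G a B c y z})
    (disjoint_left.2 fun z h1 h2 => t (h.trans (mem_filter.1 h1).2 (mem_filter.1 h2).2.symm))
  rw [h.card_cls hx, h.card_cls hy, ← two_mul] at h1
  exact h1.ge.trans (card_le_card fun z hz => hZ z (by simpa using hz))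

/-- The classes of a point of `B` and of the point `Blk.ex` (for `c = a`) are disjoint and avoid `a`. -/
theorem Blk.two_mul (h : Blk G a B) : 2 * #B + 1 ≤ Fintype.card X := by
  obtain ⟨b, hb⟩ := card_pos.1 (two_pos.trans_le h.b2)
  obtain ⟨y, h1, h2⟩ := h.ex
  have h3 := h.two_le (x := b) (c := a) (Z := univ.erase a) (fun e => h.nm (e ▸ hb)) h1 (fun ⟨g, k1, k2, k3⟩ =>
    h2 (by simpa using h.blk g⁻¹ (inv_smul_eq_iff.2 k1.symm) _ k2 (by rwa [inv_smul_smul]) _ k3))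
    fun z hz => mem_erase.2 ⟨hz.elim (fun t => (h.ne t).2) fun t => (h.ne t).2, mem_univ _⟩
  rw [← card_univ, ← card_erase_add_one (mem_univ a)]
  omega

theorem Blk.card_cls' (h : Blk G a B) (hx : x ≠ c) :
    #{y | y ≠ x ∧ Ter G a B c x y} = #B - 1 := by
  rw [← h.card_cls hx, ← card_erase_of_mem (a := x) (mem_filter.2 ⟨mem_univ _, h.refl hx⟩)]
  congr 1
  ext y
  simp

/-- The number does not depend on the pair (`Blk.two`, `Ter.smul`); count the `(c, y)` with `y ≠ x`, `Ter c x y` in two ways. -/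
theorem Blk.card_pair (h : Blk G a B) (hxy : x ≠ y) : #{c | Ter G a B c x y} = #B - 1 := by
  have h1 := card_mul_eq_card_mul (s := univ.erase x) (t := univ.erase x)
    (fun c y => Ter G a B c x y) (m := #B - 1) (n := #{c | Ter G a B c x y}) (fun c hc => by
      rw [← h.card_cls' (mem_erase.1 hc).1.symm]
      congr 1
      ext y
      simp) fun z hz => by
      obtain ⟨g, k1, k2⟩ := h.two x z x y (mem_erase.1 hz).1.symm hxy
      refine card_bij (fun c _ => g • c) (fun c hc => ?_) (fun _ _ _ _ e => smul_left_cancel g e)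
        fun c hc => ⟨g⁻¹ • c, ?_, smul_inv_smul g c⟩
      · simpa [k1, k2] using ((mem_bipartiteBelow _).1 hc).2.smul g
      · have t := (mem_filter.1 hc).2.smul g⁻¹
        rw [inv_smul_eq_iff.2 k1.symm, inv_smul_eq_iff.2 k2.symm] at t
        exact (mem_bipartiteBelow _).2 ⟨mem_erase.2 ⟨(h.ne t).1.symm, mem_univ _⟩, t⟩
  exact (Nat.eq_of_mul_eq_mul_left (card_pos.2 ⟨y, mem_erase.2 ⟨hxy.symm, mem_univ _⟩⟩) h1).symm

/-- `dist`: let `Z` be the set to be counted.  If `c ∈ Δ`, `¬ Ter c x y`, and `Ter c x z` or `Ter c y z`, then `z ∈ Z` (an element fixing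
`c`, `z` with `g • x = y` would give `Ter c x y`; if `z ∈ Δ` take `g` from `Eqv G Δ x y`).  For one such `c` the two classes are
disjoint: `2 b ≤ #Z`.  For `Δ' = {c ∈ Δ | ¬ Ter c x y}`, `#Δ' ≥ s - (b - 1)`, and `U = {z ≠ x | ∃ c ∈ Δ', Ter c x z}`: counting the pairs
`(c, z)` gives `#Δ' (b - 1) ≤ #U (b - 1)` (`x ∉ Δ`); `x, y ∈ Z \ U`.  `bad`: `Δ ⊆ {c | Ter c x y}`. -/
theorem Blk.hyp (h : Blk G a B) : Hyp G (fun (Δ : Finset X) x y => ∀ c ∈ Δ, Ter G a B c x y)
    (fun s => max (2 * #B) (s + 3 - #B)) (fun s => #B - 1 - s) := by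
  refine ⟨fun Δ x y hxy ⟨g, hg, e⟩ hA => ?_, fun Δ z x y hA c hc => hA c (mem_insert_of_mem hc),
    fun Δ x y hxy hA => ?_⟩
  · have hx : ∀ c ∈ Δ, x ≠ c := fun c hc e' => hxy (by rw [← e, e', hg c hc])
    have hy : ∀ c ∈ Δ, y ≠ c := fun c hc e' =>
      hxy (by rw [smul_left_cancel g (e.trans (e'.trans (hg c hc).symm)), e'])
    have key : ∀ c ∈ Δ, ¬ Ter G a B c x y → ∀ z, Ter G a B c x z ∨ Ter G a B c y z →
        z ∈ ({z ∈ Δᶜ | ¬ Eqv G (insert z Δ) x y} : Finset X) := fun c hc t z hz => by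
      have h1 : ∀ k : G, k • c = c → k • z = z → k • x ≠ y := fun k k1 k2 k3 => t (hz.elim
        (fun u => h.trans u (by simpa only [k1, k2, k3] using (u.smul k).symm)) fun u =>
          h.trans (by simpa only [inv_smul_eq_iff.2 k1.symm, inv_smul_eq_iff.2 k2.symm,
            inv_smul_eq_iff.2 k3.symm] using u.smul k⁻¹) u.symm)
      exact mem_filter.2 ⟨mem_compl.2 fun hz' => h1 g (hg c hc) (hg z hz') e, fun ⟨k, k1, k2⟩ =>
        h1 k (k1 c (mem_insert_of_mem hc)) (k1 z (mem_insert_self _ _)) k2⟩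
    push Not at hA
    obtain ⟨c, hc, t⟩ := hA
    refine max_le (h.two_le (hx c hc) (hy c hc) t (key c hc t)) ?_
    have h1 := card_mul_le_card_mul (s := {c ∈ Δ | ¬ Ter G a B c x y})
      (t := (({z ∈ Δᶜ | ¬ Eqv G (insert z Δ) x y} : Finset X).erase x).erase y)
      (fun c z => Ter G a B c x z) (m := #B - 1) (n := #B - 1) (fun d hd => by
        obtain ⟨d1, d2⟩ := mem_filter.1 hd
        rw [← h.card_cls' (hx d d1)]
        exact card_le_card fun z hz => (mem_bipartiteAbove _).2 ⟨mem_erase.2 ⟨fun e' => d2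
          (e' ▸ (mem_filter.1 hz).2.2), mem_erase.2 ⟨(mem_filter.1 hz).2.1,
            key d d1 d2 z (.inl (mem_filter.1 hz).2.2)⟩⟩, (mem_filter.1 hz).2.2⟩) fun z hz => by
        rw [← h.card_pair (mem_erase.1 (mem_erase.1 hz).2).1.symm]
        exact card_le_card fun d hd => mem_filter.2 ⟨mem_univ _, ((mem_bipartiteBelow _).1 hd).2⟩
    have h2 := h.b2
    have h3 := Nat.le_of_mul_le_mul_right h1 (by omega)
    have h4 := card_erase_add_one (key c hc t x (.inl (h.refl (hx c hc))))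
    have h5 := card_erase_add_one (mem_erase.2 ⟨hxy.symm, key c hc t y (.inr (h.refl (hy c hc)))⟩)
    have h6 := card_filter_add_card_filter_not (s := Δ) fun c => Ter G a B c x y
    have h7 : #{c ∈ Δ | Ter G a B c x y} ≤ #B - 1 := h.card_pair hxy ▸
      card_le_card fun d hd => mem_filter.2 ⟨mem_univ _, (mem_filter.1 hd).2⟩
    omega
  · rw [← h.card_pair hxy, ← card_sdiff_of_subset fun c hc => mem_filter.2 ⟨mem_univ _, hA c hc⟩]
    refine card_le_card fun z hz => ?_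
    simp only [mem_filter] at hz
    exact mem_sdiff.2 ⟨mem_filter.2 ⟨mem_univ _, hz.2 z (mem_insert_self _ _)⟩, mem_compl.1 hz.1⟩

end Cfsg.Lib.PS4
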