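import Mathlib

/-! The Praeger–Saxl bound (S0725) by averaging over random bases: definitions. -/

set_option autoImplicit false

namespace Cfsg.Lib.PS4

open Finset MulAction
open scoped Classical

universe u v

section
variable (G : Type*) {X : Type*} [Group G] [MulAction G X]

/-- `x` and `y` are conjugate under the pointwise stabilizer of `Δ`. -/
def Eqv (Δ : Finset X) (x y : X) : Prop := ∃ g : G, (∀ z ∈ Δ, g • z = z) ∧ g • x = y

/-- The ternary relation defined by a block `B` of the stabilizer of `a`. -/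
def Ter (a : X) (B : Finset X) (c x y : X) : Prop := ∃ g : G, g • c = a ∧ g • x ∈ B ∧ g • y ∈ B

variable [Fintype X] [DecidableEq X]

/-- The number of points whose stabilizer separates `x` and `y`. -/
noncomputable def dd (x y : X) : ℕ := #{z | ¬ Eqv G {z} x y}

/-- `log` of the order of the pointwise stabilizer. -/
noncomputable def lg (Δ : Finset X) : ℝ := Real.log (Nat.card (fixingSubgroup G (Δ : Set X)))

/-- Good pairs are separated by `d` new points, bad pairs stay bad for at most `c` new points. -/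
structure Hyp (A : Finset X → X → X → Prop) (d c : ℕ → ℕ) : Prop where
  dist : ∀ Δ x y, x ≠ y → Eqv G Δ x y → ¬ A Δ x y → d #Δ ≤ #{z ∈ Δᶜ | ¬ Eqv G (insert z Δ) x y}
  mono : ∀ Δ z x y, A (insert z Δ) x y → A Δ x y
  bad : ∀ Δ x y, x ≠ y → A Δ x y → #{z ∈ Δᶜ | A (insert z Δ) x y} ≤ c #Δ

variable (X) in
/-- Primitive. -/
def Prim : Prop := (∀ x y : X, ∃ g : G, g • x = y) ∧
  ∀ B : Finset X, (∀ g : G, ∀ x ∈ B, g • x ∈ B → ∀ y ∈ B, g • y ∈ B) → #B ≤ 1 ∨ B = univ

/-- `G` is 2-transitive and `B` is a proper block of the stabilizer of `a`. -/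
structure Blk (a : X) (B : Finset X) : Prop where
  two : ∀ x y x' y' : X, x ≠ y → x' ≠ y' → ∃ g : G, g • x = x' ∧ g • y = y'
  nm : a ∉ B
  b2 : 2 ≤ #B
  ex : ∃ c, c ≠ a ∧ c ∉ B
  blk : ∀ g : G, g • a = a → ∀ x ∈ B, g • x ∈ B → ∀ y ∈ B, g • y ∈ B

end

section
variable {X : Type*} [Fintype X] [DecidableEq X]

/-- The number of ordered pairs of distinct related points. -/
noncomputable def np (R : X → X → Prop) : ℕ := #{p ∈ (univ : Finset X).offDiag | R p.1 p.2}

/-- The average of `f` over random `s`-subsets. -/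
noncomputable def av : ℕ → (Finset X → ℝ) → ℝ
  | 0, f => f ∅
  | s + 1, f => av s fun Δ => (∑ z ∈ Δᶜ, f (insert z Δ)) / ((Fintype.card X - s : ℕ) : ℝ)

/-- The closed neighbourhood of a set. -/
noncomputable def nb (R : X → X → Prop) (A : Finset X) : Finset X := univ.filter fun y => y ∈ A ∨ ∃ w ∈ A, R w y

theorem mem_nb {R : X → X → Prop} {A : Finset X} {y : X} : y ∈ nb R A ↔ y ∈ A ∨ ∃ w ∈ A, R w y := by simp [nb]

/-- The closed ball of radius `r` around `x`. -/
noncomputable def ball (R : X → X → Prop) (x : X) : ℕ → Finset X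
  | 0 => {x}
  | r + 1 => nb R (ball R x r)

end

/-- What a simply primitive group of degree `n + 1` tells about `D = dd x y`: `M` is the largest subdegree and `k` the valency of
the orbital graph of `(x, y)`. -/
def Bad (n D : ℕ) : Prop := ∃ ρ k M T : ℕ, M + ρ = n + 1 ∧ n + 1 ≤ ρ ^ 2 ∧ 1 ≤ M ∧ 1 ≤ k ∧ k ≤ n ∧ n * (ρ + 1) ≤ T ∧
  2 * M * ρ ≤ T ∧ 2 * n ≤ k * D ∧ 8 * k * T ≤ D * (2 * n + k) ^ 2 ∧ ((M ≤ k ∧ 8 * M * T ≤ D * (2 * n + M) ^ 2) ∨
    (k + 1 ≤ ρ ∧ 8 * M * T ≤ ((ρ - 1) / k + 1) * D * (2 * n + M) ^ 2))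

/-- Forces the evaluation of `x`. -/
def frc (x : ℕ) (k : ℕ → ℕ) : ℕ := match x with
  | 0 => k 0
  | n + 1 => k (n + 1)

theorem frc_eq (x : ℕ) (k : ℕ → ℕ) : frc x k = k x := by cases x <;> rfl

/-- The numerical recursion (fixed point, unit `65536`) for a degree between `N1` and `N2`; `0` is failure. -/
def run (N1 N2 : ℕ) (d kn kd : ℕ → ℕ) (fuel : ℕ) : ℕ → ℕ → ℕ → ℕ → ℕ :=
  Nat.rec (motive := fun _ => ℕ → ℕ → ℕ → ℕ → ℕ) (fun _ _ _ _ => 0) (fun _ ih s Q A P =>
    bif Nat.ble (8 * Q) 65536 then 8 * P / 7 + 1 else bif Nat.ble N1 s then 0 else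
      frc (min (d s) (N2 - s)) fun e =>
      frc (P * (65536 * (N1 - s) + Q) / (65536 * (N1 - s)) + 1) fun P' =>
      frc ((Q * (N2 - s - e) + e * A) / (N2 - s) + 1) fun Q' =>
      frc (A * kn s / kd s + 1) fun A' => frc (s + 1) fun s' => ih s' Q' A' P') fuel

theorem run_succ (N1 N2 : ℕ) (d kn kd : ℕ → ℕ) (f s Q A P : ℕ) : run N1 N2 d kn kd (f + 1) s Q A P =
    if 8 * Q ≤ 65536 then 8 * P / 7 + 1 else if N1 ≤ s then 0 else run N1 N2 d kn kd f (s + 1)
      ((Q * (N2 - s - min (d s) (N2 - s)) + min (d s) (N2 - s) * A) / (N2 - s) + 1) (A * kn s / kd s + 1)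
      (P * (65536 * (N1 - s) + Q) / (65536 * (N1 - s)) + 1) := by
  simp only [run, frc_eq, ← Nat.ble_eq, Bool.cond_eq_ite]

/-- The resulting bound. -/
def bd (N1 N2 : ℕ) (d kn kd : ℕ → ℕ) (a : ℕ) : ℕ :=
  run N1 N2 d kn kd (N1 + 1) 0 (65536 * (N2 * (N2 - 1))) (65536 * a) 1

/-- Every faithful action of degree `N` with `Hyp` and at most `a` bad pairs at the start has order at most `w`. -/
def Bnd (N : ℕ) (d c : ℕ → ℕ) (a w : ℕ) : Prop :=
  ∀ (G : Type u) (X : Type v) [Group G] [MulAction G X] [Fintype X] [DecidableEq X] [FaithfulSMul G X]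
    (A : Finset X → X → X → Prop), Fintype.card X = N → Hyp G A d c → np (A ∅) ≤ a → Nat.card G ≤ w

/-- Bound for the simply primitive groups. -/
def OKU (N w : ℕ) : Prop := ∃ d, (∀ D < d, ¬ Bad (N - 1) D) ∧ Bnd.{u, v} N (fun _ => d) (fun _ => 0) 0 w

/-- Bound for the 2-transitive groups with imprimitive point stabilizer. -/
def OKI (N w : ℕ) : Prop := ∀ b, 2 ≤ b → 2 * b + 1 ≤ N →
  Bnd.{u, v} N (fun s => max (2 * b) (s + 3 - b)) (fun s => b - 1 - s) (N * (N - 1)) w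

end Cfsg.Lib.PS4
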