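import Cfsg.Agent.Lib.PS4.Def

/-! Averaging over random subsets. -/

set_option autoImplicit false

namespace Cfsg.Lib.PS4

open Finset MulAction
open scoped Classical

variable {G X : Type*} [Group G] [MulAction G X] [Fintype X] [DecidableEq X] {A : Finset X → X → X → Prop}
  {d c : ℕ → ℕ} {s : ℕ}

/-- Induction on `s` (generalizing the functions); `#Δᶜ = card X - s > 0` for `#Δ = s`. -/
theorem av_le (hs : s ≤ Fintype.card X) {f g h : Finset X → ℝ} {a b e : ℝ}
    (H : ∀ Δ, #Δ = s → f Δ ≤ a + b * g Δ + e * h Δ) : av s f ≤ a + b * av s g + e * av s h := by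
  induction s generalizing f g h with
  | zero => exact H ∅ rfl
  | succ s ih =>
    refine ih (by omega) fun Δ hΔ => ?_
    have hn : (0 : ℝ) < (Fintype.card X - s : ℕ) := Nat.cast_pos.2 (by omega)
    have := sum_le_sum (s := Δᶜ) fun z hz => H (insert z Δ) (by rw [card_insert_of_notMem (mem_compl.1 hz), hΔ])
    rw [sum_add_distrib, sum_add_distrib, sum_const, card_compl, hΔ, nsmul_eq_mul, ← mul_sum, ← mul_sum] at this
    rw [div_le_iff₀ hn, add_mul, add_mul, mul_assoc, mul_assoc, div_mul_cancel₀ _ hn.ne', div_mul_cancel₀ _ hn.ne']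
    linarith

theorem np_eq (R : X → X → Prop) : (np R : ℝ) = ∑ p ∈ (univ : Finset X).offDiag, if R p.1 p.2 then 1 else 0 := by
  rw [np, card_filter]; push_cast; rfl

theorem sum_np (R : X → X → X → Prop) (T : Finset X) :
    ∑ z ∈ T, (np (R z) : ℝ) = ∑ p ∈ (univ : Finset X).offDiag, (#{z ∈ T | R z p.1 p.2} : ℝ) := by
  simp only [np_eq, card_filter]; push_cast; exact sum_comm

omit [Fintype X] in
theorem Eqv.of_insert {Δ : Finset X} {z x y : X} (h : Eqv G (insert z Δ) x y) : Eqv G Δ x y :=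
  h.imp fun _ h => ⟨fun w hw => h.1 w (mem_insert_of_mem hw), h.2⟩

omit [Fintype X] [DecidableEq X] in
theorem Eqv.rfl {Δ : Finset X} {x : X} : Eqv G Δ x x := ⟨1, fun _ _ => one_smul _ _, one_smul _ _⟩

/-- For `#Δ = s` write `np` as a sum over `offDiag` and swap the sums.  A pair `x ≠ y` contributes
`#{z ∈ Δᶜ | Eqv G (insert z Δ) x y}`: this is `0` unless `Eqv G Δ x y`, at most `N - s`, and at most `N - s - d s` if the pair
is good.  Then `av_le`. -/
theorem av_Q (h : Hyp G A d c) (hs : s < Fintype.card X) {θ : ℝ} (h0 : 0 ≤ θ) (h1 : θ ≤ 1)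
    (h2 : θ * ((Fintype.card X - s : ℕ) : ℝ) ≤ d s) :
    av (s + 1) (fun Δ : Finset X => (np (Eqv G Δ) : ℝ)) ≤
      (1 - θ) * av s (fun Δ : Finset X => (np (Eqv G Δ) : ℝ)) + θ * av s (fun Δ => (np (A Δ) : ℝ)) := by
  refine (av_le hs.le (a := 0) fun Δ hΔ => ?_).trans_eq (by rw [zero_add])
  have hn : (0 : ℝ) < (Fintype.card X - s : ℕ) := Nat.cast_pos.2 (by omega)
  rw [div_le_iff₀ hn, sum_np fun z => Eqv G (insert z Δ), np_eq, np_eq, zero_add, mul_sum, mul_sum, ← sum_add_distrib, sum_mul]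
  refine sum_le_sum fun p hp => ?_
  have e := congrArg (Nat.cast : ℕ → ℝ) (card_filter_add_card_filter_not (s := Δᶜ) fun z => Eqv G (insert z Δ) p.1 p.2)
  rw [card_compl, hΔ, Nat.cast_add] at e
  have z : ¬ Eqv G Δ p.1 p.2 → (#{z ∈ Δᶜ | Eqv G (insert z Δ) p.1 p.2} : ℝ) = 0 := fun a => by
    rw [filter_eq_empty_iff.2 fun z _ b => a b.of_insert, card_empty, Nat.cast_zero]
  have k : (0 : ℝ) ≤ #{z ∈ Δᶜ | ¬ Eqv G (insert z Δ) p.1 p.2} := Nat.cast_nonneg _
  split_ifs with a b b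
  · linarith
  · have : (d s : ℝ) ≤ _ := Nat.cast_le.2 (hΔ ▸ h.dist Δ _ _ (mem_offDiag.1 hp).2.2 a b)
    linarith
  · rw [z a]; positivity
  · rw [z a]; simp

/-- The same with `Hyp.mono`, `Hyp.bad`. -/
theorem av_A (h : Hyp G A d c) (hs : s < Fintype.card X) {κ : ℝ}
    (h2 : (c s : ℝ) ≤ κ * ((Fintype.card X - s : ℕ) : ℝ)) :
    av (s + 1) (fun Δ => (np (A Δ) : ℝ)) ≤ κ * av s (fun Δ => (np (A Δ) : ℝ)) := by
  refine (av_le hs.le (a := 0) (b := κ) (e := 0) (g := fun Δ => np (A Δ)) (h := fun _ => 0) fun Δ hΔ => ?_).trans_eq (by rw [zero_add, zero_mul, add_zero])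
  have hn : (0 : ℝ) < (Fintype.card X - s : ℕ) := Nat.cast_pos.2 (by omega)
  rw [div_le_iff₀ hn, sum_np fun z => A (insert z Δ), np_eq, zero_add, zero_mul, add_zero, mul_sum, sum_mul]
  refine sum_le_sum fun p hp => ?_
  split_ifs with a
  · have : _ ≤ (c s : ℝ) := Nat.cast_le.2 (hΔ ▸ h.bad Δ _ _ (mem_offDiag.1 hp).2.2 a)
    linarith
  · rw [filter_eq_empty_iff.2 fun z _ b => a (h.mono _ _ _ _ b)]; simp

/-- The orbit lengths `o z = #{y | Eqv G Δ z y} ≥ 1` satisfy `∑ z, (o z - 1) = np (Eqv G Δ)`. -/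
theorem sum_orb (Δ : Finset X) : ∑ z, #{y | Eqv G Δ z y} = Fintype.card X + np (Eqv G Δ) := by
  simp only [np, card_filter]
  rw [← sum_product', ← diag_union_offDiag, sum_union (disjoint_diag_offDiag _), sum_diag]
  simp [Eqv.rfl]

/-- Orbit–stabilizer for the pointwise stabilizer of `Δ`. -/
theorem card_fix [Finite G] (Δ : Finset X) (z : X) : Nat.card (fixingSubgroup G (Δ : Set X)) =
    #{y | Eqv G Δ z y} * Nat.card (fixingSubgroup G ((insert z Δ : Finset X) : Set X)) := by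
  have e : stabilizer (fixingSubgroup G (Δ : Set X)) z =
      (fixingSubgroup G ((insert z Δ : Finset X) : Set X)).subgroupOf (fixingSubgroup G (Δ : Set X)) := by
    ext ⟨g, hg⟩
    simp only [mem_stabilizer_iff, Subgroup.mem_subgroupOf, mem_fixingSubgroup_iff, coe_insert, Set.forall_mem_insert] at hg ⊢
    exact ⟨fun a => ⟨a, hg⟩, fun a => a.1⟩
  rw [← (stabilizer (fixingSubgroup G (Δ : Set X)) z).index_mul_card, index_stabilizer, e, Nat.card_congr
    (Subgroup.subgroupOfEquivOfLe (fixingSubgroup_antitone G X (by simp))).toEquiv, ← Set.ncard_coe_finset]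
  congr 2
  ext y
  simp only [coe_filter, mem_univ, true_and, Set.mem_setOf_eq]
  exact ⟨fun ⟨g, a⟩ => ⟨g, (mem_fixingSubgroup_iff _).1 g.2, a⟩, fun ⟨g, a, b⟩ => ⟨⟨g, (mem_fixingSubgroup_iff _).2 a⟩, b⟩⟩

omit [DecidableEq X] in
theorem orb_pos (Δ : Finset X) (z : X) : 0 < #{y | Eqv G Δ z y} := card_pos.2 ⟨z, by simp [Eqv.rfl]⟩

/-- With `n = N - s`, `t = 1 + q / n`: `lg Δ = log (o z) + lg (insert z Δ)` and `log (o z) ≤ log t + o z / t - 1`
(`Real.log_le_sub_one_of_pos`), `∑ z ∈ Δᶜ, o z ≤ n + np (Eqv G Δ)`.  So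
`lg Δ ≤ (log t - 1 + 1 / t) + (1 / (t n)) np + average of lg (insert z Δ)`; `av_le`. -/
theorem av_L [Finite G] (hs : s < Fintype.card X) {q : ℝ} (hq : 0 ≤ q)
    (h : av s (fun Δ : Finset X => (np (Eqv G Δ) : ℝ)) ≤ q) :
    av s (lg G : Finset X → ℝ) ≤ Real.log (1 + q / ((Fintype.card X - s : ℕ) : ℝ)) + av (s + 1) (lg G : Finset X → ℝ) := by
  have hn : (0 : ℝ) < (Fintype.card X - s : ℕ) := Nat.cast_pos.2 (by omega)
  have hn' : ((Fintype.card X - s : ℕ) : ℝ) = Fintype.card X - s := Nat.cast_sub hs.le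
  set n : ℝ := ((Fintype.card X - s : ℕ) : ℝ) with en
  have ht : 0 < 1 + q / n := by positivity
  set t := 1 + q / n with et
  refine (av_le hs.le (a := Real.log t - 1 + 1 / t) (b := 1 / (t * n)) (e := 1) (g := fun Δ => (np (Eqv G Δ) : ℝ))
    (h := fun Δ => (∑ z ∈ Δᶜ, lg G (insert z Δ)) / n) fun Δ hΔ => ?_).trans ?_
  · have h1 : ∀ z ∈ Δᶜ, lg G Δ ≤ Real.log t - 1 + (#{y | Eqv G Δ z y} : ℝ) / t + lg G (insert z Δ) := fun z _ => by
      have p : (0 : ℝ) < #{y | Eqv G Δ z y} := Nat.cast_pos.2 (orb_pos Δ z)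
      have := Real.log_le_sub_one_of_pos (div_pos p ht)
      rw [Real.log_div p.ne' ht.ne'] at this
      rw [lg, card_fix Δ z, Nat.cast_mul, Real.log_mul p.ne' (Nat.cast_pos.2 Nat.card_pos).ne', lg]
      linarith
    have h2 := sum_le_sum h1
    rw [sum_add_distrib, sum_add_distrib, sum_const, sum_const, card_compl, hΔ, nsmul_eq_mul, nsmul_eq_mul, ← sum_div, ← en] at h2
    have h3 := congrArg (Nat.cast : ℕ → ℝ) ((sum_add_sum_compl Δ _).trans (sum_orb (G := G) Δ))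
    have h4 : (s : ℝ) ≤ _ := Nat.cast_le.2 (hΔ ▸ card_nsmul_le_sum Δ (fun z => #{y | Eqv G Δ z y}) 1 (fun z _ => orb_pos Δ z) |>.trans'
      (by simp))
    push_cast at h3 h4
    have h5 := div_le_div_of_nonneg_right (show ∑ z ∈ Δᶜ, (#{y | Eqv G Δ z y} : ℝ) ≤ n + np (Eqv G Δ) by linarith) ht.le
    refine le_of_mul_le_mul_left ((h2.trans (add_le_add_left (add_le_add_right h5 _) _)).trans_eq ?_) hn
    field_simp
    ring
  · have := mul_le_mul_of_nonneg_left h (show 0 ≤ 1 / (t * n) by positivity)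
    have e : 1 / t + 1 / (t * n) * q = 1 := by rw [et]; field_simp
    rw [one_mul]
    exact add_le_add_left (by linarith) _

/-- `g ↦ (g • z)_z` embeds the pointwise stabilizer into `∏ z, orbit of z`, and `log (o z) ≤ o z - 1`. -/
theorem lg_le [FaithfulSMul G X] (Δ : Finset X) : lg G Δ ≤ np (Eqv G Δ) := by
  let f : fixingSubgroup G (Δ : Set X) → ∀ z, ({y | Eqv G Δ z y} : Finset X) := fun g z =>
    ⟨g.1 • z, by simpa using ⟨g.1, (mem_fixingSubgroup_iff _).1 g.2, rfl⟩⟩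
  have hf : Function.Injective f := fun a b e => Subtype.ext (eq_of_smul_eq_smul fun z : X => congrArg Subtype.val (congrFun e z))
  have := Finite.of_injective f hf
  have h1 := Nat.card_le_card_of_injective f hf
  rw [Nat.card_pi] at h1
  simp only [Nat.card_eq_fintype_card, Fintype.card_coe] at h1
  have h2 := congrArg (Nat.cast : ℕ → ℝ) (sum_orb (G := G) Δ)
  have p : ∀ z, (0 : ℝ) < #{y | Eqv G Δ z y} := fun z => Nat.cast_pos.2 (orb_pos Δ z)
  refine (Real.log_le_log (Nat.cast_pos.2 Nat.card_pos) (Nat.cast_le.2 h1)).trans ?_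
  rw [Nat.cast_prod, Real.log_prod fun z _ => (p z).ne']
  refine (sum_le_sum fun z _ => Real.log_le_sub_one_of_pos (p z)).trans ?_
  rw [sum_sub_distrib]
  push_cast at h2
  simp [h2]

end Cfsg.Lib.PS4
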