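import Cfsg.Agent.Lib.PS4.Uni
import Cfsg.Agent.Lib.PS4.Imp

/-! Reduction to simply primitive groups and 2-transitive groups with imprimitive point stabilizer. -/

set_option autoImplicit false

namespace Cfsg.Lib.PS4

open Finset MulAction SubMulAction
open scoped Classical Pointwise

universe u v

theorem prim_of {G X : Type*} [Group G] [MulAction G X] [Fintype X] [DecidableEq X] (h : IsPreprimitive G X) :
    Prim G X := by
  refine ⟨fun x y => exists_smul_eq G x y, fun B hB => ?_⟩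
  have : IsBlock G (B : Set X) := isBlock_iff_smul_eq_of_mem.2 fun g a ha hg =>
    Set.eq_of_subset_of_ncard_le (by rintro _ ⟨y, hy, rfl⟩; exact hB g a ha hg y hy) (Set.ncard_smul_set g _).ge
  rcases h.isTrivialBlock_of_isBlock this with e | e
  · exact .inl (card_le_one.2 fun a ha b hb => e ha hb)
  · exact .inr (coe_eq_univ.1 e)

theorem np_le {X : Type*} [Fintype X] [DecidableEq X] (R : X → X → Prop) :
    np R ≤ Fintype.card X * (Fintype.card X - 1) :=
  (card_filter_le _ _).trans (by rw [offDiag_card, card_univ, Nat.mul_sub_one])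

theorem core (j : ℕ) : ∀ (G : Type u) (X : Type v) [Group G] [MulAction G X] [Fintype X] [DecidableEq X]
    [FaithfulSMul G X] (n c : ℕ), Fintype.card X = n → IsPreprimitive G X → ¬ IsMultiplyPretransitive G X (j + 1) →
    (∀ i < j, ∃ w, OKU.{u, v} (n - i) w ∧ n.descFactorial i * w ≤ c) →
    (∀ i, i + 1 < j → ∃ w, OKI.{u, v} (n - i) w ∧ n.descFactorial i * w ≤ c) → Nat.card G ≤ c := by
  induction j with
  | zero => exact fun G X _ _ _ _ _ n c _ hp hm _ _ => (hm (is_one_pretransitive_iff.2 hp.toIsPretransitive)).elim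
  | succ j ih =>
  intro G X _ _ _ _ _ n c hn hp hm hU hI
  obtain ⟨a⟩ : Nonempty X := by
    by_contra e
    exact hm ⟨fun x => (e ⟨x 0⟩).elim⟩
  obtain ⟨n, rfl⟩ : ∃ m, n = m + 1 := ⟨n - 1, by have := Fintype.card_pos_iff.2 ⟨a⟩; omega⟩
  by_cases h2 : ∃ z a b : X, a ≠ z ∧ b ≠ z ∧ ¬ Eqv G {z} a b
  · obtain ⟨w, ⟨d, hd, hb⟩, hw⟩ := hU 0 (by omega)
    refine (hb G X _ hn (uni_hyp fun x y e => not_lt.1 fun l => hd _ l (uni_bad (prim_of hp) hn h2 e)) ?_).trans
      (by simpa using hw)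
    simp [np]
  push Not at h2
  have tr : IsPretransitive (stabilizer G a) (ofStabilizer G a) := ⟨fun x y => by
    obtain ⟨g, g1, g2⟩ := h2 a x y x.2 y.2
    exact ⟨⟨g, g1 a (mem_singleton_self a)⟩, Subtype.ext g2⟩⟩
  have hm' := fun e => hm ((ofStabilizer.isMultiplyPretransitive (n := j + 1) (a := a)).2 e)
  by_cases hq : IsPreprimitive (stabilizer G a) (ofStabilizer G a)
  · have : FaithfulSMul (stabilizer G a) (ofStabilizer G a) := ⟨fun {g h} e => Subtype.ext
      (eq_of_smul_eq_smul fun x : X => by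
        by_cases hx : x = a
        · rw [hx]; exact g.2.trans h.2.symm
        · exact congrArg Subtype.val (e ⟨x, hx⟩))⟩
    have hc : Fintype.card (ofStabilizer G a) = n := by
      have := nat_card_ofStabilizer_add_one_eq G a
      rw [Nat.card_eq_fintype_card, Nat.card_eq_fintype_card] at this
      omega
    have key : ∀ i w, (n + 1).descFactorial (i + 1) * w ≤ c → n.descFactorial i * w ≤ c / (n + 1) := fun i w e =>
      (Nat.le_div_iff_mul_le n.succ_pos).2 (by rw [Nat.succ_descFactorial_succ] at e; linarith)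
    have := ih _ _ n (c / (n + 1)) hc hq hm' (fun i l => by
      obtain ⟨w, h1, h2⟩ := hU (i + 1) (by omega)
      exact ⟨w, by simpa using h1, key i w h2⟩) fun i l => by
      obtain ⟨w, h1, h2⟩ := hI (i + 1) (by omega)
      exact ⟨w, by simpa using h1, key i w h2⟩
    rw [← (stabilizer G a).index_mul_card, index_stabilizer_of_transitive, Nat.card_eq_fintype_card, hn]
    exact (Nat.mul_le_mul_left _ this).trans (Nat.mul_div_le _ _)
  obtain ⟨B, hB, nB⟩ : ∃ B : Set (ofStabilizer G a), IsBlock (stabilizer G a) B ∧ ¬ IsTrivialBlock B := by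
    by_contra! e
    exact hq { toIsPretransitive := tr, isTrivialBlock_of_isBlock := fun {B} => e B }
  have j0 : 0 + 1 < j + 1 := by
    rcases j with _ | j
    · exact (hm' (is_one_pretransitive_iff.2 tr)).elim
    · omega
  obtain ⟨w, hb, hw⟩ := hI 0 j0
  have mem : ∀ {x : X}, x ∈ (Subtype.val '' B).toFinset ↔ ∃ h : x ≠ a, (⟨x, h⟩ : ofStabilizer G a) ∈ B := by
    intro x; simp only [Set.mem_toFinset]
    exact ⟨fun ⟨y, h, e⟩ => e ▸ ⟨y.2, h⟩, fun ⟨h, e⟩ => ⟨_, e, rfl⟩⟩
  have bl : Blk G a (Subtype.val '' B).toFinset := by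
    refine ⟨fun x y x' y' e e' => ?_, fun e => (mem.1 e).1 rfl, ?_, ?_, fun g hg x hx gx y hy => ?_⟩
    · obtain ⟨g, rfl⟩ := exists_smul_eq G x x'
      obtain ⟨k, k1, k2⟩ := h2 (g • x) (g • y) y' (fun l => e (smul_left_cancel g l).symm) e'.symm
      exact ⟨k * g, by rw [mul_smul, k1 _ (mem_singleton_self _)], by rw [mul_smul, k2]⟩
    · obtain ⟨x, hx, y, hy, e⟩ := Set.not_subsingleton_iff.1 fun e => nB (.inl e)
      exact one_lt_card.2 ⟨x, mem.2 ⟨x.2, hx⟩, y, mem.2 ⟨y.2, hy⟩, fun l => e (Subtype.ext l)⟩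
    · obtain ⟨x, hx⟩ := (Set.ne_univ_iff_exists_notMem B).1 fun e => nB (.inr e)
      exact ⟨x, x.2, fun e => hx (mem.1 e).2⟩
    · obtain ⟨x1, x2⟩ := mem.1 hx
      obtain ⟨y1, y2⟩ := mem.1 hy
      have := hB.smul_eq_of_mem (g := ⟨g, hg⟩) x2 (mem.1 gx).2
      have l := Set.smul_mem_smul_set (a := (⟨g, hg⟩ : stabilizer G a)) y2
      rw [this] at l
      exact mem.2 ⟨_, l⟩
  exact (hb _ bl.b2 (by simpa [hn] using bl.two_mul) G X _ hn bl.hyp ((np_le _).trans (by simp [hn]))).trans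
    (by simpa using hw)

end Cfsg.Lib.PS4
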