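import Cfsg.Agent.Lib.PS4.Num

/-! The numerical part of the Praeger–Saxl bound: medium and large degrees. -/

set_option autoImplicit false

namespace Cfsg.Lib.PS4

open Cfsg.Lib.SNL (Kill)

universe u v

/-- Intervals `(n1, n2, R, d)`. -/
def la : List (ℕ × ℕ × ℕ × ℕ) := [(86, 88, 5, 10), (89, 90, 6, 10), (91, 94, 5, 10), (95, 95, 6, 10), (96, 96, 7, 10),
  (97, 102, 5, 10), (103, 105, 6, 10), (106, 113, 6, 11), (114, 119, 6, 11), (120, 124, 7, 11), (125, 128, 7, 11),
  (129, 141, 6, 12), (142, 151, 7, 12), (152, 164, 8, 13), (165, 177, 8, 13), (178, 200, 7, 14), (201, 223, 7, 14),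
  (224, 250, 7, 15), (251, 285, 9, 16), (286, 328, 10, 17), (329, 368, 14, 18), (369, 426, 13, 19), (427, 507, 15, 21),
  (508, 623, 16, 23), (624, 792, 16, 25), (793, 1031, 20, 28), (1032, 1362, 30, 32), (1363, 1961, 27, 37)]

theorem la_chk : la.all (fun t => chk t.1 t.2.1 t.2.2.1 t.2.2.2) = true := by decide +kernel

theorem la_kl : (List.range 1876).all (fun n => la.any fun t => decide (t.1 ≤ n + 86) && decide (n + 86 ≤ t.2.1) &&
    kl (n + 86) t.2.2.1) = true := by decide +kernel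

theorem good_mid {n : ℕ} (h1 : 86 ≤ n) (h2 : n ≤ 1961) : Good.{u, v} n := by
  have r := List.all_eq_true.1 la_kl (n - 86) (List.mem_range.2 (by omega))
  rw [Nat.sub_add_cancel h1] at r
  simp only [List.any_eq_true, Bool.and_eq_true, decide_eq_true_eq] at r
  obtain ⟨t, ht, ⟨a, b⟩, c⟩ := r
  exact chk_sound (List.all_eq_true.1 la_chk t ht) a b (kl_sound (by omega) c)

theorem good_gen {n1 n2 p d n : ℕ} (hp : p.Prime) (h : chk n1 n2 (p + n2 / p + 1) d = true) (h1 : n1 ≤ n) (h2 : n ≤ n2)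
    (h3 : n2 ≤ p ^ 2) (h4 : 4 * (p + 1) < n1) : Good.{u, v} n := by
  obtain ⟨r, a, b⟩ := kill_gen hp (h2.trans h3) (h4.trans_le h1)
  exact chk_sound h h1 h2 ⟨r, a.trans (by have := Nat.div_le_div_right (c := p) h2; omega), b⟩

theorem good_big {n : ℕ} (h1 : 1962 ≤ n) (h2 : n ≤ 266509) : Good.{u, v} n := by
  by_cases n ≤ 2432
  · exact good_gen (n1 := 1962) (n2 := 2432) (p := 53) (d := 44) (by norm_num) (by decide +kernel) h1 ‹_› (by norm_num)
      (by norm_num)
  by_cases n ≤ 3167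
  · exact good_gen (n1 := 2433) (n2 := 3167) (p := 59) (d := 49) (by norm_num) (by decide +kernel) (by omega) ‹_›
      (by norm_num) (by norm_num)
  by_cases n ≤ 4546
  · exact good_gen (n1 := 3168) (n2 := 4546) (p := 71) (d := 56) (by norm_num) (by decide +kernel) (by omega) ‹_›
      (by norm_num) (by norm_num)
  by_cases n ≤ 7194
  · exact good_gen (n1 := 4547) (n2 := 7194) (p := 89) (d := 67) (by norm_num) (by decide +kernel) (by omega) ‹_›
      (by norm_num) (by norm_num)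
  by_cases n ≤ 12552
  · exact good_gen (n1 := 7195) (n2 := 12552) (p := 113) (d := 84) (by norm_num) (by decide +kernel) (by omega) ‹_›
      (by norm_num) (by norm_num)
  by_cases n ≤ 25351
  · exact good_gen (n1 := 12553) (n2 := 25351) (p := 163) (d := 111) (by norm_num) (by decide +kernel) (by omega) ‹_›
      (by norm_num) (by norm_num)
  by_cases n ≤ 62232
  · exact good_gen (n1 := 25352) (n2 := 62232) (p := 251) (d := 158) (by norm_num) (by decide +kernel) (by omega) ‹_›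
      (by norm_num) (by norm_num)
  by_cases n ≤ 194973
  · exact good_gen (n1 := 62233) (n2 := 194973) (p := 443) (d := 248) (by norm_num) (by decide +kernel) (by omega) ‹_›
      (by norm_num) (by norm_num)
  · exact good_gen (n1 := 194974) (n2 := 266509) (p := 521) (d := 441) (by norm_num) (by decide +kernel) (by omega) h2
      (by norm_num) (by norm_num)

theorem pow_big {L : ℕ} (h : 19 ≤ L) : (L * (2 * L + 9) + 4) ^ 2 ≤ 2 ^ (L + 1) := by
  induction L, h using Nat.le_induction with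
  | base => norm_num
  | succ L h ih =>
    have : 4 * ((L + 1) * (2 * (L + 1) + 9) + 4) ≤ 5 * (L * (2 * L + 9) + 4) := by nlinarith
    have := Nat.pow_le_pow_left this 2
    rw [pow_succ 2 (L + 1)]
    nlinarith

theorem good_huge {n : ℕ} (h : 2 ^ 18 ≤ n) : Good.{u, v} n := by
  obtain ⟨l, hl⟩ : ∃ l, l = Nat.log 2 n := ⟨_, rfl⟩
  obtain ⟨s, hs⟩ : ∃ s, s = Nat.sqrt n := ⟨_, rfl⟩
  have l1 : 2 ^ l ≤ n := hl ▸ Nat.pow_log_le_self 2 (by omega)
  have l2 : n < 2 ^ (l + 1) := hl ▸ Nat.lt_pow_succ_log_self (by norm_num) n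
  have l3 : 18 ≤ l := hl ▸ Nat.le_log_of_pow_le (by norm_num) h
  have s1 : s * s ≤ n := hs ▸ Nat.sqrt_le n
  have s2 : n < (s + 1) * (s + 1) := hs ▸ Nat.lt_succ_sqrt n
  have f : (l + 1) * (2 * (l + 1) + 9) + 4 < 2 * (s + 1) := by
    refine lt_of_pow_lt_pow_left₀ 2 (by omega) ((pow_big (by omega)).trans_lt ?_)
    rw [pow_succ, pow_succ]; nlinarith
  have f1 : 19 * (2 * (l + 1) + 9) ≤ (l + 1) * (2 * (l + 1) + 9) := Nat.mul_le_mul_right _ (by omega)
  have f2 : (s + 1) * ((l + 1) * (2 * (l + 1) + 9)) ≤ 2 * n := by nlinarith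
  have f3 : (s + 1) * (2 * (l + 1) + 5) + 3 * (s + 1) + 16 ≤ n := by nlinarith
  obtain ⟨p, hp, p1, p2⟩ := Nat.exists_prime_lt_and_le_two_mul (s + 1) (by omega)
  obtain ⟨r, r1, r2⟩ := kill_gen (n := n) hp (by nlinarith) (by nlinarith)
  have r3 : n / p < s + 1 := (Nat.div_lt_iff_lt_mul hp.pos).2 (by nlinarith)
  have key : ∀ i < 3 * (s + 1), n.descFactorial i * (n - i) ^ ((s + 1) * (2 * (l + 1) + 5) + 1) ≤ 4 ^ n := fun i hi => by
    refine (Nat.mul_le_mul ((n.descFactorial_le_pow i).trans ((Nat.pow_le_pow_left l2.le i).trans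
      (Nat.pow_le_pow_right (by positivity) hi.le))) (Nat.pow_le_pow_left ((n.sub_le i).trans l2.le) _)).trans ?_
    rw [← pow_add, ← pow_mul, show 4 = 2 ^ 2 from rfl, ← pow_mul]
    exact Nat.pow_le_pow_right (by norm_num) (by nlinarith)
  refine ⟨3 * (s + 1), ⟨r, by omega, r2⟩, fun i hi => ⟨_, ⟨Nat.sqrt (n - i - 1) + 1, nbad_sq (by omega) ?_,
    bnd_ana (by omega) (by omega) (by omega) (by omega) (by omega) (fun _ _ => ?_) fun _ _ => by omega⟩, key i hi⟩,
    fun i hi => ⟨_, fun b _ _ => bnd_ana (by omega) (by omega) (by omega) (by omega) (by omega) (fun t ht => ?_)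
      fun _ _ => by omega, key i (by omega)⟩⟩
  · have := Nat.sqrt_le' (n - i - 1)
    rw [Nat.add_sub_cancel]; omega
  · have := Nat.mul_le_mul (Nat.lt_succ_sqrt (n - i - 1)) s2.le
    refine Nat.mul_self_le_mul_self_iff.1 (((Nat.mul_le_mul (by omega) (n.sub_le i)).trans this).trans_eq ?_)
    simp only [Nat.succ_eq_add_one]; ring
  · exact ((n.sub_le i).trans s2.le).trans (Nat.mul_le_mul_left _ (by omega))

theorem good {n : ℕ} (h : 22 ≤ n) : Good.{u, v} n := by
  by_cases n ≤ 85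
  · exact good_small h ‹_›
  by_cases n ≤ 1961
  · exact good_mid (by omega) ‹_›
  by_cases n ≤ 266509
  · exact good_big (by omega) ‹_›
  · exact good_huge (by omega)

end Cfsg.Lib.PS4
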