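import Cfsg.Agent.Lib.PS4.Fr

/-! Soundness of the numerical recursion, and the bound for large degrees. -/

set_option autoImplicit false

namespace Cfsg.Lib.PS4

open Finset MulAction
open scoped Classical

universe u v

variable {G X : Type*} [Group G] [MulAction G X] [Fintype X] [DecidableEq X] [FaithfulSMul G X]
  {A : Finset X → X → X → Prop} {d d' c kn kd : ℕ → ℕ} {N N1 N2 a : ℕ}

theorem div_le_nat (x : ℕ) {y : ℕ} (hy : 0 < y) : (x : ℝ) / y ≤ (x / y + 1 : ℕ) := by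
  rw [div_le_iff₀' (Nat.cast_pos.2 hy)]
  exact_mod_cast (Nat.lt_mul_div_succ x hy).le

theorem av_lg {s : ℕ} (hs : s ≤ Fintype.card X) :
    av s (lg G : Finset X → ℝ) ≤ av s fun Δ : Finset X => (np (Eqv G Δ) : ℝ) :=
  (av_le hs (a := 0) (b := 1) (e := 0) (h := fun _ => 0) fun Δ _ => by simpa using lg_le Δ).trans_eq
    (by rw [zero_add, zero_mul, add_zero, one_mul])

theorem run_np (R : X → X → Prop) : np R ≤ Fintype.card X * (Fintype.card X - 1) :=
  (card_filter_le _ _).trans_eq (by rw [offDiag_card, card_univ, Nat.mul_sub_one])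

omit [Fintype X] [DecidableEq X] [FaithfulSMul G X] in
theorem lg_empty : lg G (∅ : Finset X) = Real.log (Nat.card G) := by
  rw [lg, coe_empty, fixingSubgroup_empty, Subgroup.card_top]

omit [FaithfulSMul G X] in
theorem run_np' (Δ : Finset X) : (np (Eqv G Δ) : ℝ) ≤ (Fintype.card X - #Δ : ℕ) * ((Fintype.card X : ℝ) - 1) := by
  have h1 := sum_le_card_nsmul Δ (fun z => #{y | Eqv G Δ z y}) 1 fun z hz => card_le_one.2 fun a ha b hb => by
    obtain ⟨g, h, rfl⟩ := (mem_filter.1 ha).2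
    obtain ⟨g', h', rfl⟩ := (mem_filter.1 hb).2
    rw [h z hz, h' z hz]
  have h2 := sum_le_card_nsmul Δᶜ (fun z => #{y | Eqv G Δ z y}) _ fun z _ => card_le_univ _
  have h3 := (sum_add_sum_compl Δ _).trans (sum_orb (G := G) Δ)
  have h4 : Fintype.card X + np (Eqv G Δ) ≤ #Δ + (Fintype.card X - #Δ) * Fintype.card X := by
    rw [smul_eq_mul, mul_one] at h1
    rw [smul_eq_mul, card_compl] at h2
    omega
  have h5 := (Nat.cast_le (α := ℝ)).2 h4
  push_cast [card_le_univ Δ] at h5 ⊢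
  linarith

/-- Induction on the fuel with `run_succ`.  Stop: `av s lg ≤ av s np ≤ 1 / 8` (`lg_le`, `av_le`), `exp (1/8) ≤ 8 / 7`.
Step: `av_L` with `q = Q / 65536` and `N1 - s ≤ N - s`; `av_Q` with `θ = e / (N2 - s)`, `e = min (d' s) (N2 - s)`; `av_A` with
`κ = kn s / kd s`; `x / y ≤ (x / y : ℕ) + 1`.  `G` is finite (`Finite.of_injective _ MulAction.toPerm_injective`). -/
theorem run_sound (h : Hyp G A d c) (h1 : N1 ≤ Fintype.card X) (h2 : Fintype.card X ≤ N2) (hd : ∀ s < N1, d' s ≤ d s)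
    (hk : ∀ s < N1, 0 < kd s ∧ c s * kd s ≤ kn s * (Fintype.card X - s)) (f s Q B P : ℕ) (hs : s ≤ N1)
    (hQ : av s (fun Δ : Finset X => (np (Eqv G Δ) : ℝ)) ≤ Q / 65536) (hB : av s (fun Δ => (np (A Δ) : ℝ)) ≤ B / 65536)
    (hP : (Nat.card G : ℝ) ≤ P * Real.exp (av s (lg G : Finset X → ℝ))) (h0 : run N1 N2 d' kn kd f s Q B P ≠ 0) :
    Nat.card G ≤ run N1 N2 d' kn kd f s Q B P := by
  have := Finite.of_injective _ (MulAction.toPerm_injective (α := G) (β := X))
  induction f generalizing s Q B P with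
  | zero => exact (h0 rfl).elim
  | succ f ih =>
    rw [run_succ] at h0 ⊢
    split_ifs at h0 ⊢ with a b
    · have q : (8 * Q : ℝ) ≤ 65536 := by exact_mod_cast a
      have e := (Real.exp_le_exp.2 ((av_lg (hs.trans h1)).trans (hQ.trans (show _ ≤ 1 / 8 by linarith)))).trans
        (Real.exp_bound_div_one_sub_of_interval (by norm_num) (by norm_num))
      have := div_le_nat (8 * P) (y := 7) (by norm_num)
      have := mul_le_mul_of_nonneg_left e (Nat.cast_nonneg P)
      refine (Nat.cast_le (α := ℝ)).1 ?_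
      push_cast at *
      linarith
    · exact (h0 rfl).elim
    have s1 : s < N1 := by omega
    have sN := s1.trans_le h1
    have n1 : 0 < N1 - s := by omega
    have n2 : 0 < N2 - s := by omega
    have n1' : (0 : ℝ) < (N1 - s : ℕ) := Nat.cast_pos.2 n1
    have n2' : (0 : ℝ) < (N2 - s : ℕ) := Nat.cast_pos.2 n2
    refine ih _ _ _ _ s1 ?_ ?_ ?_ h0
    · have e1 := min_le_left (d' s) (N2 - s)
      have e2 := min_le_right (d' s) (N2 - s)
      generalize min (d' s) (N2 - s) = e at e1 e2 ⊢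
      have t0 : (0 : ℝ) ≤ e / (N2 - s : ℕ) := by positivity
      have t1 : (e : ℝ) / (N2 - s : ℕ) ≤ 1 := (div_le_one n2').2 (Nat.cast_le.2 e2)
      refine (av_Q h sN t0 t1 ((mul_le_mul_of_nonneg_left (Nat.cast_le.2 (Nat.sub_le_sub_right h2 s)) t0).trans
        ((div_mul_cancel₀ _ n2'.ne').trans_le (Nat.cast_le.2 (e1.trans (hd s s1)))))).trans ((add_le_add
          (mul_le_mul_of_nonneg_left hQ (sub_nonneg.2 t1)) (mul_le_mul_of_nonneg_left hB t0)).trans
          (le_trans (le_of_eq ?_) (div_le_div_of_nonneg_right (div_le_nat _ n2) (by norm_num))))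
      rw [Nat.cast_add, Nat.cast_mul, Nat.cast_mul, Nat.cast_sub e2]
      field_simp
    · have k : (0 : ℝ) < kd s := Nat.cast_pos.2 (hk s s1).1
      refine (av_A h sN (κ := kn s / kd s) ?_).trans ((mul_le_mul_of_nonneg_left hB (by positivity)).trans
        (le_trans (le_of_eq ?_) (div_le_div_of_nonneg_right (div_le_nat _ (hk s s1).1) (by norm_num))))
      · rw [div_mul_eq_mul_div, le_div_iff₀ k]
        exact_mod_cast (hk s s1).2
      · push_cast
        ring
    · have e := Real.exp_le_exp.2 (av_L sN (by positivity) hQ)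
      rw [Real.exp_add, Real.exp_log (by positivity)] at e
      refine hP.trans ((mul_le_mul_of_nonneg_left e (Nat.cast_nonneg P)).trans ?_)
      rw [← mul_assoc]
      refine mul_le_mul_of_nonneg_right (le_trans ?_ (div_le_nat _ (by positivity))) (Real.exp_pos _).le
      refine (mul_le_mul_of_nonneg_left (add_le_add_right (div_le_div_of_nonneg_left (by positivity) n1'
        (Nat.cast_le.2 (Nat.sub_le_sub_right h1 s))) _) (Nat.cast_nonneg P)).trans_eq ?_
      rw [Nat.cast_mul, Nat.cast_add, Nat.cast_mul, Nat.cast_ofNat]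
      field_simp

/-- `run_sound` at `s = 0`: `np R ≤ N (N - 1)` (`offDiag_card`), `fixingSubgroup G ∅ = ⊤`. -/
theorem bnd_bd {a' : ℕ} (h1 : N1 ≤ N) (h2 : N ≤ N2) (hd : ∀ s < N1, d' s ≤ d s)
    (hk : ∀ s < N1, 0 < kd s ∧ c s * kd s ≤ kn s * (N - s)) (ha : a ≤ a') (h0 : bd N1 N2 d' kn kd a' ≠ 0) :
    Bnd.{u, v} N d c a (bd N1 N2 d' kn kd a') := by
  rintro G X _ _ _ _ _ A rfl h e
  have := Finite.of_injective _ (MulAction.toPerm_injective (α := G) (β := X))
  refine run_sound h h1 h2 hd hk _ 0 _ _ 1 (Nat.zero_le _) ?_ ?_ ?_ h0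
  · rw [Nat.cast_mul, Nat.cast_ofNat, mul_div_cancel_left₀ _ (by norm_num)]
    exact Nat.cast_le.2 ((run_np _).trans (Nat.mul_le_mul h2 (Nat.sub_le_sub_right h2 1)))
  · rw [Nat.cast_mul, Nat.cast_ofNat, mul_div_cancel_left₀ _ (by norm_num)]
    exact Nat.cast_le.2 (e.trans ha)
  · rw [av, lg_empty, Real.exp_log (Nat.cast_pos.2 Nat.card_pos), Nat.cast_one, one_mul]

/-- `av s (np A) ≤ N² / 2 ^ s` (`av_A`, `κ = 1 / 2`), which is `≤ 1 / 8` for `s ≥ 2 m ≥ 2 L + 3`.  `av s (np Eqv) ≤ N²` for all `s ≤ N`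
(`av_le`), and for `s = 2 m + j`: `av s (np Eqv) ≤ 1 / 8 + (1 - 1 / m) ^ j N²` (`av_Q`, `θ = 1 / m`); `(1 - 1 / m) ^ m ≤ exp (-1) ≤ 1 / 2`,
so at `S = m (2 L + 5)` it is `≤ 1`.  Each step costs at most `log N`: for this use `av_L` with `q = (N - s) (N - 1)`, valid as
`np (Eqv G Δ) ≤ (N - #Δ) (N - 1)` (the first point of a pair is not in `Δ`).  Finally `lg_le` and `exp 1 ≤ 3 ≤ N`. -/
theorem bnd_ana {m L : ℕ} (hN : N ≤ 2 ^ L) (hm : N ≤ m * m) (h3 : 3 ≤ N) (hL : 2 * L + 3 ≤ 2 * m)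
    (hS : m * (2 * L + 5) ≤ N) (hd : ∀ s, 2 * m ≤ s → N ≤ m * d s) (hc : ∀ s < N, 2 * c s ≤ N - s) :
    Bnd.{u, v} N d c a (N ^ (m * (2 * L + 5) + 1)) := by
  rintro G X _ _ _ _ _ A rfl h -
  have := Finite.of_injective _ (MulAction.toPerm_injective (α := G) (β := X))
  set N := Fintype.card X with eN
  have N3 : (3 : ℝ) ≤ N := by exact_mod_cast h3
  have m0 : (0 : ℝ) < m := Nat.cast_pos.2 (by omega)
  have m1 : (1 : ℝ) ≤ m := Nat.one_le_cast.2 (by omega)
  have hA : ∀ s ≤ N, av s (fun Δ => (np (A Δ) : ℝ)) ≤ N ^ 2 * (1 / 2) ^ s := fun s hs => by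
    induction s with
    | zero =>
      rw [pow_zero, mul_one, sq, av]
      exact_mod_cast (run_np _).trans (Nat.mul_le_mul_left _ (Nat.sub_le _ _))
    | succ s ih =>
      have k := (Nat.cast_le (α := ℝ)).2 (hc s hs)
      rw [Nat.cast_mul, Nat.cast_ofNat] at k
      have := av_A h hs (κ := 1 / 2) (by linarith)
      have := ih (by omega)
      rw [pow_succ (1 / 2 : ℝ)]
      linarith
  have h8 : (N : ℝ) ^ 2 * (1 / 2) ^ (2 * L + 3) ≤ 1 / 8 := by
    have : (N : ℝ) ≤ 2 ^ L := by exact_mod_cast hN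
    refine (mul_le_mul_of_nonneg_right (pow_le_pow_left₀ (by positivity) this 2) (by positivity)).trans_eq ?_
    rw [pow_add, one_div_pow, pow_mul']
    field_simp
    norm_num
  have hE : ∀ s ≤ N, av s (fun Δ : Finset X => (np (Eqv G Δ) : ℝ)) ≤ (N - s : ℕ) * ((N : ℝ) - 1) := fun s hs =>
    (av_le hs (b := 0) (e := 0) (g := fun _ => 0) (h := fun _ => 0) fun Δ e => by simpa [e] using run_np' (G := G) Δ).trans_eq (by simp [eN])
  have t0 : (0 : ℝ) ≤ 1 / m := by positivity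
  have t1 : (1 : ℝ) / m ≤ 1 := (div_le_one m0).2 m1
  have hQ : ∀ j, 2 * m + j ≤ N → av (2 * m + j) (fun Δ : Finset X => (np (Eqv G Δ) : ℝ)) ≤ 1 / 8 + (1 - 1 / m) ^ j * N ^ 2 :=
    fun j hj => by
    induction j with
    | zero =>
      have : ((N - (2 * m + 0) : ℕ) : ℝ) ≤ N := Nat.cast_le.2 (Nat.sub_le _ _)
      have := hE _ hj
      nlinarith
    | succ j ih =>
      have k : ((N - (2 * m + j) : ℕ) : ℝ) ≤ m * d (2 * m + j) := by exact_mod_cast (Nat.sub_le _ _).trans (hd _ (by omega))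
      have k1 := av_Q h (s := 2 * m + j) hj t0 t1 (by rwa [one_div, inv_mul_le_iff₀ m0])
      have k2 := mul_le_mul_of_nonneg_left (ih (by omega)) (sub_nonneg.2 t1)
      have k3 := mul_le_mul_of_nonneg_left ((hA (2 * m + j) (by omega)).trans ((mul_le_mul_of_nonneg_left
        (pow_le_pow_of_le_one (by norm_num) (by norm_num) (show 2 * L + 3 ≤ _ by omega)) (by positivity)).trans h8)) t0
      rw [pow_succ (1 - 1 / m : ℝ), ← add_assoc]
      linarith
  have hL : ∀ s ≤ N, Real.log (Nat.card G) ≤ s * Real.log N + av s (lg G : Finset X → ℝ) := fun s hs => by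
    induction s with
    | zero => simp [av, lg_empty]
    | succ s ih =>
      have n : (0 : ℝ) < (N - s : ℕ) := Nat.cast_pos.2 (by omega)
      have k := av_L hs (mul_nonneg n.le (by linarith)) (hE s (by omega))
      rw [mul_div_cancel_left₀ _ n.ne', add_sub_cancel] at k
      have := ih (by omega)
      push_cast
      linarith
  have e : m * (2 * L + 5) = 2 * m + m * (2 * L + 3) := by ring
  have k1 := (av_lg hS).trans (e ▸ hQ _ (e ▸ hS))
  have k2 : (1 - 1 / m : ℝ) ^ (m * (2 * L + 3)) ≤ (1 / 2) ^ (2 * L + 3) := by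
    rw [pow_mul]
    exact pow_le_pow_left₀ (pow_nonneg (sub_nonneg.2 t1) _) ((Real.one_sub_div_pow_le_exp_neg m1).trans
      (Real.exp_neg_one_lt_d9.le.trans (by norm_num))) _
  have k3 := mul_le_mul_of_nonneg_right k2 (sq_nonneg (N : ℝ))
  have k4 : 1 ≤ Real.log N := (Real.le_log_iff_exp_le (by linarith)).2 (Real.exp_one_lt_d9.le.trans (by linarith))
  have k5 := hL _ hS
  refine (Nat.cast_le (α := ℝ)).1 ((Real.log_le_log_iff (Nat.cast_pos.2 Nat.card_pos) (by positivity)).1 ?_)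
  rw [Nat.cast_pow, Real.log_pow, Nat.cast_succ]
  linarith

end Cfsg.Lib.PS4
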