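import Cfsg.Agent.Lib.PS4.Wat

/-! Simply primitive groups: many point stabilizers separate two given points. -/

set_option autoImplicit false

namespace Cfsg.Lib.PS4

open Finset MulAction
open scoped Classical

variable {G X : Type*} [Group G] [MulAction G X] [Fintype X] [DecidableEq X] {R : X → X → Prop} {k n D : ℕ}

omit [Fintype X] [DecidableEq X] in
theorem e1_iff {z x y : X} : Eqv G {z} x y ↔ ∃ g : G, g • z = z ∧ g • x = y := by simp [Eqv]

omit [Fintype X] [DecidableEq X] in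
theorem e1_refl (z x : X) : Eqv G {z} x x := e1_iff.2 ⟨1, one_smul _ _, one_smul _ _⟩

omit [Fintype X] [DecidableEq X] in
theorem e1_symm {z x y : X} (h : Eqv G {z} x y) : Eqv G {z} y x :=
  let ⟨g, h1, h2⟩ := e1_iff.1 h
  e1_iff.2 ⟨g⁻¹, inv_smul_eq_iff.2 h1.symm, inv_smul_eq_iff.2 h2.symm⟩

omit [Fintype X] [DecidableEq X] in
theorem e1_trans {z x y w : X} (h : Eqv G {z} x y) (h' : Eqv G {z} y w) : Eqv G {z} x w :=
  let ⟨g, h1, h2⟩ := e1_iff.1 h
  let ⟨g', h3, h4⟩ := e1_iff.1 h'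
  e1_iff.2 ⟨g' * g, by rw [mul_smul, h1, h3], by rw [mul_smul, h2, h4]⟩

omit [Fintype X] [DecidableEq X] in
theorem e1_smul (g : G) {z x y : X} : Eqv G {g • z} (g • x) (g • y) ↔ Eqv G {z} x y := by
  have k : ∀ (g : G) {z x y : X}, Eqv G {z} x y → Eqv G {g • z} (g • x) (g • y) := fun g z x y h =>
    let ⟨a, h1, h2⟩ := e1_iff.1 h
    e1_iff.2 ⟨g * a * g⁻¹, by simp [mul_smul, h1], by simp [mul_smul, h2]⟩
  exact ⟨fun h => by simpa using k g⁻¹ h, k g⟩

omit [Fintype X] [DecidableEq X] in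
theorem e1_ne {z x : X} (h : x ≠ z) : ¬ Eqv G {z} x z := fun e =>
  let ⟨g, h1, h2⟩ := e1_iff.1 e
  h (MulAction.injective g (h2.trans h1.symm))

theorem dd_symm (x y : X) : dd G x y = dd G y x := by
  exact congrArg card (filter_congr fun z _ => not_congr ⟨e1_symm, e1_symm⟩)

theorem dd_smul (g : G) (x y : X) : dd G (g • x) (g • y) = dd G x y := by
  exact (card_equiv (MulAction.toPerm g) fun z => by simp [e1_smul]).symm

theorem dd_self (x : X) : dd G x x = 0 := by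
  simp [dd, e1_refl]

theorem dd_tri (x y z : X) : dd G x z ≤ dd G x y + dd G y z := by
  refine le_trans (card_le_card fun w hw => ?_) (card_union_le _ _)
  simp only [mem_union, mem_filter, mem_univ, true_and] at hw ⊢
  by_contra! e
  exact hw (e1_trans e.1 e.2)

theorem dd_ball (hD : ∀ x y, R x y → dd G x y ≤ D) {x y : X} {r : ℕ} (h : y ∈ ball R x r) : dd G x y ≤ r * D := by
  induction r generalizing y with
  | zero => rw [mem_singleton.1 h, dd_self]; exact Nat.zero_le _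
  | succ r ih =>
    rw [add_one_mul]
    rcases mem_nb.1 h with h | ⟨w, h1, h2⟩
    · exact (ih h).trans (Nat.le_add_right _ _)
    · exact (dd_tri x w y).trans (Nat.add_le_add (ih h1) (hD _ _ h2))

/-- Swap the sums. -/
theorem sum_dd : ∑ x : X, ∑ y : X, dd G x y = ∑ z : X, #{p : X × X | ¬ Eqv G {z} p.1 p.2} := by
  simp only [dd, card_filter]
  rw [← Fintype.sum_prod_type', sum_comm]

section graph
variable (hp : Prim G X) (hn : Fintype.card X = n + 1) (sy : ∀ x y, R x y → R y x) (ir : ∀ x, ¬ R x x)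
  (inv : ∀ (g : G) x y, R x y → R (g • x) (g • y)) (hD : ∀ x y, R x y → dd G x y ≤ D) (h1 : 1 ≤ k)
include hp hn sy ir inv hD h1

omit hD in
theorem exists_dist (hk : ∀ x, k ≤ #{y | R x y}) (x : X) :
    ∃ δ : X → ℕ, (∀ y r, y ∈ ball R x r ↔ δ y ≤ r) ∧ ∀ y, δ y ≤ n := by
  have a : ball R x n = univ := (ball_card hp sy ir inv hk x n).elim id fun e => eq_univ_of_card _ (by
    have := card_le_univ (ball R x n)
    have := Nat.mul_le_mul_left n h1
    omega)
  have b : ∀ y, ∃ r, y ∈ ball R x r := fun y => ⟨n, a ▸ mem_univ y⟩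
  exact ⟨fun y => Nat.find (b y), fun y r => ⟨fun e => Nat.find_min' (b y) e, fun e => ball_mono x e (Nat.find_spec (b y))⟩,
    fun y => Nat.find_min' (b y) (a ▸ mem_univ y)⟩

/-- `ball R x n = univ` (`ball_card`); for the least `r₀` with `y ∈ ball R x r₀`:
`dd x y ≤ r₀ D ≤ D #{r < n + 1 | y ∉ ball R x r}`.  Sum over `y`: `#(ball R x r)ᶜ ≤ n - r k`, and `sum_tri`. -/
theorem gr_sum (hk : ∀ x, k ≤ #{y | R x y}) (x : X) : 8 * k * ∑ y, dd G x y ≤ D * (2 * n + k) ^ 2 := by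
  obtain ⟨δ, d1, d2⟩ := exists_dist hp hn sy ir inv h1 hk x
  have a1 : ∀ y, dd G x y ≤ D * ∑ r ∈ range (n + 1), if y ∉ ball R x r then 1 else 0 := fun y => by
    rw [← card_filter, mul_comm]
    refine (dd_ball hD ((d1 y _).2 le_rfl)).trans (Nat.mul_le_mul_right _ ?_)
    refine (card_range _).ge.trans (card_le_card fun r hr => mem_filter.2 ⟨mem_range.2 ?_, fun e => ?_⟩) <;>
      have := mem_range.1 hr
    · have := d2 y
      omega
    · have := (d1 y r).1 e
      omega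
  have a2 : ∑ y, dd G x y ≤ D * ∑ r ∈ range (n + 1), (n - r * k) := by
    refine (sum_le_sum fun y _ => a1 y).trans ?_
    rw [← mul_sum, sum_comm]
    refine Nat.mul_le_mul_left _ (sum_le_sum fun r _ => ?_)
    rw [← card_filter, show ({y | y ∉ ball R x r} : Finset X) = (ball R x r)ᶜ from by ext; simp, card_compl, hn]
    rcases ball_card hp sy ir inv hk x r with e | e
    · rw [e, card_univ, hn]
      omega
    · omega
  refine (Nat.mul_le_mul_left _ a2).trans ?_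
  rw [mul_left_comm]
  exact Nat.mul_le_mul_left _ (sum_tri n k _)

/-- Fix `z`; `a` is closer than `b` if `a ∈ ball R z r`, `b ∉ ball R z r` for some `r`: asymmetric (`ball_mono`), and it implies
`¬ Eqv G {z} a b` and `¬ Eqv G {z} b a` (`ball_smul`).  Every `w ≠ z` has a closer neighbour (least `r` with `w ∈ ball R z r`), so
at least `2 n` ordered edges `(a, b)` have `¬ Eqv G {z} a b`.  Sum over `z`: `(n + 1) 2 n ≤ ∑ over ordered edges of dd ≤ (n + 1) k D`. -/
theorem gr_cut (hk : ∀ x, #{y | R x y} = k) : 2 * n ≤ k * D := by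
  have a1 : ∀ z : X, 2 * n ≤ #{p ∈ ({p | R p.1 p.2} : Finset (X × X)) | ¬ Eqv G {z} p.1 p.2} := fun z => by
    obtain ⟨δ, d1, -⟩ := exists_dist hp hn sy ir inv h1 (fun x => (hk x).ge) z
    have b1 : ∀ a b, δ a < δ b → ¬ Eqv G {z} a b := fun a b e c => by
      obtain ⟨g, h2, rfl⟩ := e1_iff.1 c
      have := ball_smul inv g ((d1 a _).2 le_rfl)
      rw [h2, d1] at this
      omega
    have b2 : ∀ w ∈ univ.erase z, ∃ v, R v w ∧ δ v < δ w := fun w hw => by
      have c := (d1 w _).2 le_rfl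
      have c' := d1 w
      generalize δ w = r at c c' ⊢
      cases r with
      | zero => exact ((mem_erase.1 hw).1 (mem_singleton.1 c)).elim
      | succ r =>
        obtain ⟨v, h2, h3⟩ := (mem_nb.1 c).resolve_left fun e => by have := (c' r).1 e; omega
        exact ⟨v, h3, Nat.lt_succ_of_le ((d1 v r).1 h2)⟩
    have b3 : n ≤ #{p : X × X | R p.1 p.2 ∧ δ p.1 < δ p.2} := by
      refine le_trans ?_ ((card_le_card (s := univ.erase z) fun w hw => ?_).trans (card_image_le (f := Prod.snd)))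
      · rw [card_erase_of_mem (mem_univ _), card_univ, hn]; omega
      · obtain ⟨v, h2⟩ := b2 w hw
        exact mem_image.2 ⟨(v, w), by simpa using h2, rfl⟩
    have b4 : n ≤ #{p : X × X | R p.1 p.2 ∧ δ p.2 < δ p.1} := by
      refine b3.trans (card_equiv (Equiv.prodComm X X) fun p => ?_).le
      simp only [mem_filter, mem_univ, true_and, Equiv.prodComm_apply, Prod.fst_swap, Prod.snd_swap]
      exact and_congr_left' ⟨sy _ _, sy _ _⟩
    rw [two_mul]
    refine (Nat.add_le_add b3 b4).trans ((card_union_of_disjoint (disjoint_filter.2 fun p _ e e' => ?_)).ge.trans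
      (card_le_card fun p hp => ?_))
    · omega
    · simp only [mem_union, mem_filter, mem_univ, true_and] at hp ⊢
      exact hp.elim (fun e => ⟨e.1, b1 _ _ e.2⟩) fun e => ⟨e.1, fun c => b1 _ _ e.2 (e1_symm c)⟩
  have a2 := sum_le_sum fun z (_ : z ∈ univ) => a1 z
  rw [sum_congr rfl fun z _ => card_filter (fun p : X × X => ¬ Eqv G {z} p.1 p.2) _, sum_comm] at a2
  have a3 : #({p | R p.1 p.2} : Finset (X × X)) = (n + 1) * k := by
    rw [card_filter, Fintype.sum_prod_type]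
    simp only [← card_filter, hk, sum_const, card_univ, hn, smul_eq_mul]
  have a4 := a2.trans (sum_le_card_nsmul _ _ D fun p hp => (card_filter _ _).ge.trans (hD _ _ (mem_filter.1 hp).2))
  rw [a3, sum_const, card_univ, hn, smul_eq_mul, smul_eq_mul, mul_assoc] at a4
  exact Nat.le_of_mul_le_mul_left a4 n.succ_pos

/-- If no neighbour of `x` lies in the suborbit `S` of `m ≠ x` then `{x} ∪ neighbours ⊆ Sᶜ`.  For the least `r₀ ≥ 1` with
`m ∈ ball R x r₀`, `ball R x (r₀ - 1) ⊆ Sᶜ` (`ball_smul`), so `1 + (r₀ - 1) k ≤ ρ`, and `dd x m ≤ r₀ D`. -/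
theorem gr_far (hk : ∀ x, k ≤ #{y | R x y}) {x m : X} {ρ : ℕ} (hm : m ≠ x) (hρ : #{y | ¬ Eqv G {x} m y} = ρ)
    (h : ∀ y, R x y → ¬ Eqv G {x} m y) : k + 1 ≤ ρ ∧ dd G x m ≤ ((ρ - 1) / k + 1) * D := by
  obtain ⟨δ, d1, -⟩ := exists_dist hp hn sy ir inv h1 hk x
  constructor
  · have : insert x ({y | R x y} : Finset X) ⊆ ({y | ¬ Eqv G {x} m y} : Finset X) := fun y hy => mem_filter.2 ⟨mem_univ _,
      (mem_insert.1 hy).elim (fun e => e.symm ▸ e1_ne hm) fun e => h y (mem_filter.1 e).2⟩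
    have h2 := card_le_card this
    rw [card_insert_of_notMem (by simp [ir]), hρ] at h2
    have := hk x
    omega
  have c := (d1 m _).2 le_rfl
  have c' := d1 m
  generalize δ m = r at c c'
  refine (dd_ball hD c).trans (Nat.mul_le_mul_right _ ?_)
  cases r with
  | zero => exact Nat.zero_le _
  | succ r =>
    have b1 : m ∉ ball R x r := fun e => by have := (c' r).1 e; omega
    have b2 : ball R x r ⊆ ({y | ¬ Eqv G {x} m y} : Finset X) := fun y hy => mem_filter.2 ⟨mem_univ _, fun e => by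
      obtain ⟨g, h2, h3⟩ := e1_iff.1 (e1_symm e)
      have := ball_smul inv g hy
      rw [h2, h3] at this
      exact b1 this⟩
    have b3 := ((ball_card hp sy ir inv hk x r).resolve_left fun e => b1 (e ▸ mem_univ m)).trans (card_le_card b2)
    exact Nat.succ_le_succ ((Nat.le_div_iff_mul_le h1).2 (by omega))

end graph

/-- Let `S = {y | Eqv G {x} m y}`, `O a = {b | ∀ g, g • x = a → g⁻¹ • b ∉ S}` (`= (g • S)ᶜ` for any `g` with `g • x = a`; it has `ρ`
elements and contains `a`; `O (g • a) = g • O a`).  If `O w ⊆ O x` for all `w ∈ O x` then `O w = O x`, and `O x` is a block with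
`2 ≤ ρ < card X` elements.  So some `O w`, `w ∈ O x`, meets `S`; applying the stabilizer of `x`, every point of `S` lies in some `O w`,
`w ∈ O x`; so does every point of `O x`.  Hence `card X ≤ ρ * ρ`. -/
theorem rho_sq (hp : Prim G X) {x m : X} {ρ : ℕ} (hm : m ≠ x) (hρ : #{y | ¬ Eqv G {x} m y} = ρ) (h2 : 2 ≤ ρ) :
    Fintype.card X ≤ ρ ^ 2 := by
  obtain ⟨O, hO⟩ : ∃ O : X → Finset X, ∀ (g : G) b, b ∈ O (g • x) ↔ ¬ Eqv G {x} m (g⁻¹ • b) := by
    refine ⟨fun a => {b | ∀ g : G, g • x = a → ¬ Eqv G {x} m (g⁻¹ • b)}, fun g b => ?_⟩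
    simp only [mem_filter, mem_univ, true_and]
    exact ⟨fun h => h g rfl, fun h g' e c => h (e1_trans c (e1_iff.2 ⟨g⁻¹ * g', by rw [mul_smul, e, inv_smul_smul],
      by rw [mul_smul, smul_inv_smul]⟩))⟩
  have o1 : ∀ b, b ∈ O x ↔ ¬ Eqv G {x} m b := fun b => by simpa using hO 1 b
  have o2 : ∀ a, #(O a) = ρ := fun a => by
    obtain ⟨g, rfl⟩ := hp.1 x a
    exact (card_equiv (MulAction.toPerm g⁻¹) fun b => by simp [hO]).trans hρ
  have o3 : ∀ a, a ∈ O a := fun a => by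
    obtain ⟨g, rfl⟩ := hp.1 x a
    rw [hO, inv_smul_smul]
    exact e1_ne hm
  have o4 : ∀ (g : G) a b, b ∈ O a → g • b ∈ O (g • a) := fun g a b h => by
    obtain ⟨g', rfl⟩ := hp.1 x a
    rw [← mul_smul, hO, mul_inv_rev, mul_smul, inv_smul_smul]
    exact (hO _ _).1 h
  by_cases c : ∀ w ∈ O x, O w ⊆ O x
  · have c' : ∀ w ∈ O x, O w = O x := fun w hw => eq_of_subset_of_card_le (c w hw) (by rw [o2, o2])
    rcases hp.2 (O x) (fun g w h1 h3 y hy => c _ h3 (o4 g w y ((c' w h1).symm ▸ hy))) with e | e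
    · rw [o2] at e
      omega
    · exact ((o1 m).1 (e ▸ mem_univ m) (e1_refl _ _)).elim
  push Not at c
  obtain ⟨w, h1, c⟩ := c
  obtain ⟨b, h3, h4⟩ := not_subset.1 c
  rw [o1, not_not] at h4
  refine (card_le_card (s := univ) (t := (O x).biUnion O) fun y _ => mem_biUnion.2 ?_).trans
    ((card_biUnion_le_card_mul _ _ ρ fun a _ => (o2 a).le).trans (by rw [o2, pow_two]))
  by_cases e : y ∈ O x
  · exact ⟨y, e, o3 y⟩
  rw [o1, not_not] at e
  obtain ⟨g, h5, rfl⟩ := e1_iff.1 (e1_trans (e1_symm h4) e)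
  exact ⟨g • w, h5 ▸ o4 g x w h1, o4 g w b h3⟩

/-- the orbital graph of `(x, y)` -/
theorem exists_gr (hp : Prim G X) (hn : Fintype.card X = n + 1) {x y : X} (hxy : x ≠ y) : ∃ (R : X → X → Prop) (k : ℕ),
    (∀ a b, R a b → R b a) ∧ (∀ a, ¬ R a a) ∧ (∀ (g : G) a b, R a b → R (g • a) (g • b)) ∧
      (∀ a b, R a b → dd G a b ≤ dd G x y) ∧ (∀ a, #{b | R a b} = k) ∧ 1 ≤ k ∧ k ≤ n ∧ #{b | Eqv G {x} y b} ≤ k := by
  obtain ⟨R, hR⟩ : ∃ R : X → X → Prop, ∀ a b, R a b ↔ ∃ g : G, (g • x = a ∧ g • y = b) ∨ (g • x = b ∧ g • y = a) :=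
    ⟨_, fun _ _ => Iff.rfl⟩
  have ir : ∀ a, ¬ R a a := fun a h => by
    obtain ⟨g, e | e⟩ := (hR _ _).1 h <;> exact hxy (MulAction.injective g (e.1.trans e.2.symm))
  have inv : ∀ (g : G) a b, R a b → R (g • a) (g • b) := fun g a b h => by
    obtain ⟨g', e⟩ := (hR _ _).1 h
    exact (hR _ _).2 ⟨g * g', e.imp (fun e => by simp [mul_smul, e.1, e.2]) fun e => by simp [mul_smul, e.1, e.2]⟩
  have k3 : #{b | Eqv G {x} y b} ≤ #{b | R x b} := card_le_card fun b hb =>
    mem_filter.2 ⟨mem_univ _, (hR _ _).2 ((e1_iff.1 (mem_filter.1 hb).2).imp fun _ => .inl)⟩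
  refine ⟨R, #{b | R x b}, fun a b h => (hR _ _).2 (((hR _ _).1 h).imp fun _ => .symm), ir, inv, fun a b h => ?_, fun a => ?_,
    le_trans (card_pos.2 ⟨y, mem_filter.2 ⟨mem_univ _, e1_refl _ _⟩⟩) k3, ?_, k3⟩
  · obtain ⟨g, ⟨rfl, rfl⟩ | ⟨rfl, rfl⟩⟩ := (hR _ _).1 h
    · exact (dd_smul g x y).le
    · rw [dd_smul, dd_symm]
  · obtain ⟨g, rfl⟩ := hp.1 x a
    refine (card_equiv (MulAction.toPerm g) fun b => ?_).symm
    simp only [mem_filter, mem_univ, true_and, MulAction.toPerm_apply]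
    exact ⟨inv g x b, fun h => by simpa using inv g⁻¹ _ _ h⟩
  · refine (card_le_card (t := univ.erase x) fun b hb => mem_erase.2 ⟨fun e => ir x ?_, mem_univ _⟩).trans ?_
    · subst e
      exact (mem_filter.1 hb).2
    rw [card_erase_of_mem (mem_univ _), card_univ, hn, Nat.add_sub_cancel]

/-- Take `(z₀, m)`, `m ≠ z₀`, with the largest suborbit, of length `M` (all suborbits, also the trivial ones, have length `≤ M`),
`ρ = n + 1 - M ≥ 2`, and `T = ∑ y, dd G x y` (independent of `x`: `dd_smul`).  By `sum_dd`, `(n + 1) T = ∑ z, #{(a, b) separated by z}`,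
and each term is `≥ n + n ρ` (sum over `a`; `a = z` gives `n`) and `≥ 2 M ρ` (exactly one of `a`, `b` in the translate of the largest
suborbit).  The graph `R a b := ∃ g, (g • x = a ∧ g • y = b) ∨ (g • x = b ∧ g • y = a)` has constant valency `k`, `1 ≤ k ≤ n`, and
`dd = D` on edges: `gr_cut`, `gr_sum`.  If some neighbour of `z₀` is in the suborbit of `m` then all of it consists of neighbours,
`M ≤ k`, and `gr_sum` applies with `M`.  Otherwise `gr_far`, and `gr_sum` for the graph of `(z₀, m)` (valency `≥ M`). -/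
theorem uni_bad (hp : Prim G X) (hn : Fintype.card X = n + 1)
    (h2 : ∃ z a b : X, a ≠ z ∧ b ≠ z ∧ ¬ Eqv G {z} a b) {x y : X} (hxy : x ≠ y) : Bad n (dd G x y) := by
  obtain ⟨⟨z, m⟩, hm, mx⟩ := Set.exists_max_image {p : X × X | p.2 ≠ p.1} (fun p => #{b | Eqv G {p.1} p.2 b})
    (Set.toFinite _) ⟨(y, x), hxy⟩
  change m ≠ z at hm
  obtain ⟨M, hM⟩ : ∃ M, #{b | Eqv G {z} m b} = M := ⟨_, rfl⟩
  obtain ⟨ρ, hρ⟩ : ∃ ρ, #{b | ¬ Eqv G {z} m b} = ρ := ⟨_, rfl⟩
  have s : ∀ a, #{b | Eqv G {z} a b} + #{b | ¬ Eqv G {z} a b} = n + 1 := fun a =>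
    (card_filter_add_card_filter_not _).trans (card_univ.trans hn)
  have a1 : M + ρ = n + 1 := hM ▸ hρ ▸ s m
  have a2 : 1 ≤ M := hM ▸ card_pos.2 ⟨m, mem_filter.2 ⟨mem_univ _, e1_refl _ _⟩⟩
  have a3 : 2 ≤ ρ := by
    by_contra! c
    have c' : ∀ b, b ≠ z → Eqv G {z} m b := fun b hb => by_contra fun e => hb (card_le_one.1 (hρ.le.trans (by omega)) b
      (mem_filter.2 ⟨mem_univ _, e⟩) z (mem_filter.2 ⟨mem_univ _, e1_ne hm⟩))
    obtain ⟨w, a, b, h3, h4, h5⟩ := h2
    obtain ⟨g, rfl⟩ := hp.1 w z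
    exact h5 ((e1_smul g).1 (e1_trans (e1_symm (c' _ ((MulAction.injective g).ne h3))) (c' _ ((MulAction.injective g).ne h4))))
  obtain ⟨T, hT⟩ : ∃ T, #{p : X × X | ¬ Eqv G {z} p.1 p.2} = T := ⟨_, rfl⟩
  have t : ∑ b, dd G z b = T := by
    have t1 := sum_dd (G := G) (X := X)
    rw [sum_congr rfl fun a _ => show ∑ b, dd G a b = ∑ b, dd G z b by
        obtain ⟨g, rfl⟩ := hp.1 a z
        exact Fintype.sum_equiv (MulAction.toPerm g) _ _ fun b => (dd_smul g a b).symm,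
      sum_congr rfl fun a _ => show #{p : X × X | ¬ Eqv G {a} p.1 p.2} = T by
        obtain ⟨g, rfl⟩ := hp.1 a z
        exact (card_equiv ((MulAction.toPerm g).prodCongr (MulAction.toPerm g)) fun p => by simp [e1_smul]).trans hT,
      sum_const, sum_const, card_univ, hn, smul_eq_mul, smul_eq_mul] at t1
    exact Nat.eq_of_mul_eq_mul_left n.succ_pos t1
  have t1 : n * (ρ + 1) ≤ T := by
    rw [← hT, card_filter, Fintype.sum_prod_type]
    simp only [← card_filter]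
    rw [← add_sum_erase _ _ (mem_univ z), mul_add_one, add_comm]
    refine Nat.add_le_add ?_ (le_trans ?_ (card_nsmul_le_sum _ _ ρ fun a ha => ?_))
    · have := s z
      have : #{b | Eqv G {z} z b} ≤ 1 := card_le_one.2 fun a ha b hb => by
        rw [by_contra fun e => e1_ne e (e1_symm (mem_filter.1 ha).2), by_contra fun e => e1_ne e (e1_symm (mem_filter.1 hb).2)]
      omega
    · rw [card_erase_of_mem (mem_univ _), card_univ, hn, smul_eq_mul, Nat.add_sub_cancel]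
    · have := s a
      have : #{b | Eqv G {z} a b} ≤ M := hM ▸ mx (z, a) (mem_erase.1 ha).1
      omega
  have t2 : 2 * M * ρ ≤ T := by
    rw [← hT, mul_assoc, two_mul]
    nth_rw 2 [mul_comm]
    rw [← hM, ← hρ, ← card_product, ← card_product, ← card_union_of_disjoint
      (disjoint_product.2 (.inl (disjoint_filter_filter_not _ _ _)))]
    refine card_le_card fun p h => ?_
    simp only [mem_union, mem_product, mem_filter, mem_univ, true_and] at h ⊢
    exact fun c => h.elim (fun e => e.2 (e1_trans e.1 c)) fun e => e.1 (e1_trans e.2 (e1_symm c))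
  obtain ⟨R, k, sy, ir, inv, hD, hk, k1, k2, -⟩ := exists_gr hp hn hxy
  have g1 := fun {k'} h1 h3 => t ▸ gr_sum (k := k') hp hn sy ir inv hD h1 h3 z
  refine ⟨ρ, k, M, T, a1, hn ▸ rho_sq hp hm hρ a3, a2, k1, k2, t1, t2, gr_cut hp hn sy ir inv hD k1 hk,
    g1 k1 fun a => (hk a).ge, ?_⟩
  by_cases c : ∀ w, R z w → ¬ Eqv G {z} m w
  · obtain ⟨f1, f2⟩ := gr_far hp hn sy ir inv hD k1 (fun a => (hk a).ge) hm hρ c
    obtain ⟨R', k', sy', ir', inv', hD', hk', -, -, k3⟩ := exists_gr hp hn hm.symm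
    exact .inr ⟨f1, t ▸ gr_sum hp hn sy' ir' inv' (fun a b e => (hD' a b e).trans f2) a2 (fun a => (hk' a).ge.trans' (hM ▸ k3)) z⟩
  push Not at c
  obtain ⟨w, c1, c2⟩ := c
  have c3 : M ≤ k := by
    rw [← hM, ← hk z]
    refine card_le_card fun b hb => mem_filter.2 ⟨mem_univ _, ?_⟩
    obtain ⟨g, h3, rfl⟩ := e1_iff.1 (e1_trans (e1_symm c2) (mem_filter.1 hb).2)
    exact h3 ▸ inv g z w c1
  exact .inl ⟨c3, g1 a2 fun a => c3.trans (hk a).ge⟩

/-- A point `z` with `¬ Eqv G {z} x y` is not in `Δ` and has `¬ Eqv G (insert z Δ) x y`. -/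
theorem uni_hyp {d : ℕ} (h : ∀ x y : X, x ≠ y → d ≤ dd G x y) :
    Hyp G (fun (_ : Finset X) _ _ => False) (fun _ => d) (fun _ => 0) := by
  refine ⟨fun Δ x y h1 ⟨g, h2, h3⟩ _ => (h x y h1).trans (card_le_card fun z hz => ?_), fun _ _ _ _ => id, fun _ _ _ _ => False.elim⟩
  have := (mem_filter.1 hz).2
  exact mem_filter.2 ⟨mem_compl.2 fun e => this (e1_iff.2 ⟨g, h2 z e, h3⟩),
    fun ⟨g', h4, h5⟩ => this (e1_iff.2 ⟨g', h4 z (mem_insert_self _ _), h5⟩)⟩

end Cfsg.Lib.PS4
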