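import Cfsg.Agent.Lib.PS4.Def

/-! Growth of balls in an invariant graph of a primitive group (atoms). -/

set_option autoImplicit false

namespace Cfsg.Lib.PS4

open Finset MulAction
open scoped Classical

variable {G X : Type*} [Group G] [MulAction G X] [Fintype X] [DecidableEq X] {R : X → X → Prop} {k : ℕ}

theorem sub_nb (A : Finset X) : A ⊆ nb R A := fun _ hy => mem_nb.2 (.inl hy)

theorem nb_mono {A B : Finset X} (h : A ⊆ B) : nb R A ⊆ nb R B := fun _ hy =>
  mem_nb.2 ((mem_nb.1 hy).imp (@h _) fun ⟨w, h1, h2⟩ => ⟨w, h h1, h2⟩)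

theorem mem_ball_self (x : X) (r : ℕ) : x ∈ ball R x r := by
  induction r with
  | zero => exact mem_singleton_self x
  | succ r ih => exact sub_nb _ ih

/-- Watkins.  Among the nonempty `A` with `nb R A ≠ univ` minimize first `κ = #(nb R A) - #A`, then `#A` (an atom).  The exterior
`E = (nb R A)ᶜ` is nonempty with `nb R E ⊆ Aᶜ` (symmetry), so `#(nb R E) - #E ≤ κ`, `#A ≤ #E` and `2 #A + κ ≤ card X`.  Images
`B = A.image (g • ·)` are atoms.  If `A ∩ B ≠ ∅` and `A ≠ B`: `A ∩ B` is smaller, so `#(nb R (A ∩ B)) > #(A ∩ B) + κ`;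
`nb R (A ∪ B) = nb R A ∪ nb R B`, `nb R (A ∩ B) ⊆ nb R A ∩ nb R B`, so `#(nb R (A ∪ B)) < #(A ∪ B) + κ`, forcing
`nb R (A ∪ B) = univ` and `card X < 2 #A + κ`.  So `A` is a block, `A = {x}` (`A ≠ univ`), and `κ ≥ k`. -/
theorem watkins (hp : Prim G X) (sy : ∀ x y, R x y → R y x) (ir : ∀ x, ¬ R x x)
    (inv : ∀ (g : G) x y, R x y → R (g • x) (g • y)) (hk : ∀ x, k ≤ #{y | R x y}) {A : Finset X} (hA : A.Nonempty)
    (hn : nb R A ≠ univ) : #A + k ≤ #(nb R A) := by
  obtain ⟨A₀, ⟨a1, a2⟩, a3⟩ := Set.exists_min_image {A : Finset X | A.Nonempty ∧ nb R A ≠ univ}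
    (fun A => #(nb R A) - #A) (Set.toFinite _) ⟨A, hA, hn⟩
  have c := fun B : Finset X => card_le_card (sub_nb (R := R) B)
  obtain ⟨κ, hκ⟩ := Nat.exists_eq_add_of_le (c A₀)
  have mn : ∀ B : Finset X, B.Nonempty → nb R B ≠ univ → #B + κ ≤ #(nb R B) := fun B b1 b2 => by
    have := a3 B ⟨b1, b2⟩
    have := c B
    omega
  refine le_trans (Nat.add_le_add_left ?_ _) (mn A hA hn)
  obtain ⟨B, ⟨b1, b2, b3⟩, b4⟩ := Set.exists_min_image {A : Finset X | A.Nonempty ∧ nb R A ≠ univ ∧ #(nb R A) = #A + κ}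
    card (Set.toFinite _) ⟨A₀, a1, a2, hκ⟩
  have ne : ∀ {C D : Finset X}, C ⊆ D → D ≠ univ → C ≠ univ := fun h1 h2 e => h2 (univ_subset_iff.1 (e ▸ h1))
  have big : 2 * #B + κ ≤ Fintype.card X := by
    have e1 : nb R (nb R B)ᶜ ⊆ Bᶜ := fun y hy => mem_compl.2 fun yB => (mem_nb.1 hy).elim
      (fun h => mem_compl.1 h (sub_nb B yB)) fun ⟨w, h1, h2⟩ => mem_compl.1 h1 (mem_nb.2 (.inr ⟨y, yB, sy _ _ h2⟩))
    have e2 : (nb R B)ᶜ.Nonempty := nonempty_iff_ne_empty.2 fun e => b2 (compl_eq_empty_iff _ |>.1 e)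
    have e3 := ne e1 fun e => b1.ne_empty (compl_eq_univ_iff _ |>.1 e)
    have e4 := mn _ e2 e3
    have e5 := card_le_card e1
    have e6 := card_le_univ (nb R B)
    have e7 := card_compl (nb R B)
    have e8 := card_compl B
    have := b4 _ ⟨e2, e3, by omega⟩
    omega
  rcases hp.2 B (fun g x hx gx y hy => by
    by_contra gy
    have i1 : #(B.image (g • ·)) = #B := card_image_of_injective _ (MulAction.injective g)
    have i2 : #(nb R (B.image (g • ·))) ≤ #(nb R B) := (card_le_card (t := (nb R B).image (g • ·)) fun z hz => by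
      refine mem_image.2 ⟨g⁻¹ • z, mem_nb.2 ((mem_nb.1 hz).imp (fun h => ?_) fun ⟨w, h1, h2⟩ => ?_), smul_inv_smul _ _⟩
      · obtain ⟨w, h1, rfl⟩ := mem_image.1 h
        rwa [inv_smul_smul]
      · obtain ⟨w, h3, rfl⟩ := mem_image.1 h1
        exact ⟨w, h3, by simpa using inv g⁻¹ _ _ h2⟩).trans card_image_le
    generalize hC : B.image (g • ·) = C at i1 i2
    have i3 : (B ∩ C).Nonempty := ⟨g • x, mem_inter.2 ⟨gx, hC ▸ mem_image_of_mem _ hx⟩⟩
    have i4 : #(B ∩ C) < #C := card_lt_card ⟨inter_subset_right, fun h => gy (mem_inter.1 (h (hC ▸ mem_image_of_mem _ hy))).1⟩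
    have i5 := ne (nb_mono (R := R) (inter_subset_left (s₁ := B) (s₂ := C))) b2
    have i6 := mn _ i3 i5
    have i7 : #(nb R (B ∩ C)) ≠ #(B ∩ C) + κ := fun e => by
      have := b4 _ ⟨i3, i5, e⟩
      omega
    have i8 := card_le_card (subset_inter (nb_mono (R := R) (inter_subset_left (s₁ := B) (s₂ := C))) (nb_mono inter_subset_right))
    have i9 : #(nb R (B ∪ C)) ≤ #(nb R B ∪ nb R C) := card_le_card fun z hz => by
      simp only [mem_nb, mem_union] at hz ⊢
      rcases hz with (h | h) | ⟨w, h | h, h'⟩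
      exacts [.inl (.inl h), .inr (.inl h), .inl (.inr ⟨w, h, h'⟩), .inr (.inr ⟨w, h, h'⟩)]
    have j1 := card_union_add_card_inter B C
    have j2 := card_union_add_card_inter (nb R B) (nb R C)
    have j3 := i3.card_pos
    by_cases e : nb R (B ∪ C) = univ
    · rw [e, card_univ] at i9
      omega
    · have := mn _ (b1.mono subset_union_left) e
      omega) with h | h
  · obtain ⟨x, rfl⟩ := card_eq_one.1 (le_antisymm h b1.card_pos)
    have : insert x ({y | R x y} : Finset X) ⊆ nb R {x} := fun y hy => by simpa [mem_nb] using hy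
    have h1 := card_le_card this
    rw [card_insert_of_notMem (by simp [ir])] at h1
    have := hk x
    rw [card_singleton] at b3
    omega
  · exact (b2 (univ_subset_iff.1 (h ▸ sub_nb B))).elim

/-- Induction with `watkins`. -/
theorem ball_card (hp : Prim G X) (sy : ∀ x y, R x y → R y x) (ir : ∀ x, ¬ R x x)
    (inv : ∀ (g : G) x y, R x y → R (g • x) (g • y)) (hk : ∀ x, k ≤ #{y | R x y}) (x : X) (r : ℕ) :
    ball R x r = univ ∨ 1 + r * k ≤ #(ball R x r) := by
  induction r with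
  | zero => exact .inr (by simp [ball])
  | succ r ih =>
    refine (em _).imp_right fun e => ?_
    have h1 := watkins hp sy ir inv hk ⟨x, mem_ball_self x r⟩ e
    have h2 := ih.resolve_left fun e' => e (univ_subset_iff.1 (e' ▸ sub_nb (ball R x r)))
    rw [add_one_mul, ← add_assoc]
    exact (Nat.add_le_add_right h2 k).trans h1

theorem ball_mono (x : X) {r s : ℕ} (h : r ≤ s) : ball R x r ⊆ ball R x s := by
  induction h with
  | refl => exact Subset.rfl
  | step _ ih => exact ih.trans (sub_nb _)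

theorem ball_smul (inv : ∀ (g : G) x y, R x y → R (g • x) (g • y)) (g : G) {x y : X} {r : ℕ} (h : y ∈ ball R x r) :
    g • y ∈ ball R (g • x) r := by
  induction r generalizing y with
  | zero => exact mem_singleton.2 (congrArg _ (mem_singleton.1 h))
  | succ r ih => exact mem_nb.2 ((mem_nb.1 h).imp ih fun ⟨w, h1, h2⟩ => ⟨_, ih h1, inv g _ _ h2⟩)

/-- `8 k ∑_{r < t} (n - r k) ≤ (2 n + k)²` (truncated subtraction): induction on `t` generalizing `n`, `Finset.sum_range_succ'`:
for `k ≤ n`, `8 k n + (2 (n - k) + k)² = (2 n + k)²`; for `n < k` only `r = 0` contributes and `8 k n ≤ (2 n + k)²`. -/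
theorem sum_tri (n k t : ℕ) : 8 * k * ∑ r ∈ range t, (n - r * k) ≤ (2 * n + k) ^ 2 := by
  induction t generalizing n with
  | zero => simp
  | succ t ih =>
    rw [sum_range_succ', zero_mul, Nat.sub_zero, mul_add]
    rcases le_total k n with h | h
    · obtain ⟨m, rfl⟩ := Nat.exists_eq_add_of_le h
      have := ih m
      rw [sum_congr rfl fun r _ => show k + m - (r + 1) * k = m - r * k by rw [add_one_mul]; omega]
      nlinarith
    · rw [sum_eq_zero fun r _ => Nat.sub_eq_zero_of_le (h.trans (Nat.le_mul_of_pos_left _ r.succ_pos))]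
      obtain ⟨m, rfl⟩ := Nat.exists_eq_add_of_le h
      nlinarith [sq_nonneg ((n : ℤ) - m)]

end Cfsg.Lib.PS4
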